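import Cfsg.Agent.ODec.FourB
import Cfsg.Agent.OCase.Cases2
import Cfsg.Agent.Orth.Arith

/-!
Maximality of the stabilisers of orthogonal decompositions in even dimension.
-/

set_option autoImplicit false
set_option linter.unusedSectionVars false
set_option linter.unusedVariables false

namespace Cfsg.Agent.ODec

open QuadraticMap Cfsg.Agent.Orth Cfsg.Agent.OMax Cfsg.Geo

variable {F : Type*} [Field F]

section

variable {ι : Type} [Fintype ι] [DecidableEq ι]

theorem proper_of_not_le (Q : QuadraticForm F (ι → F)) {t : ℕ} {D : Fin t → Submodule F (ι → F)}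
    (h : ¬ omegaGL ⇑Q ≤ decompositionStabilizer D) :
    ∃ h ∈ commutator (OGrp Q), ¬ ∃ σ : Equiv.Perm (Fin t), ∀ i, act h (D i) = D (σ i) := by
  by_contra hcon
  push Not at hcon
  apply h
  intro g hg
  have hgI : g ∈ Cfsg.isometryGroup F ⇑Q := omegaGL_le Q hg
  exact (mem_decompStab_iff Q D ⟨g, hgI⟩).2 (hcon _ ((mem_omegaGL_iff Q ⟨g, hgI⟩).1 hg))

/-- A totally singular subspace of a four-dimensional space that is not of plus type has dimension at
most one. -/
theorem finrank_le_one_of_not_plus [Finite F] {Q : QuadraticForm F (ι → F)} {E : Submodule F (ι → F)}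
    (hnd : E ⊓ perp Q E = ⊥) (hdim : Module.finrank F E = 4) (hp : ¬ IsPlusTypeOn ⇑Q E)
    (U : Submodule F (ι → F)) (hU : U ≤ E) (hq : ∀ u ∈ U, Q u = 0) : Module.finrank F U ≤ 1 := by
  by_contra hcon
  apply hp
  refine ⟨U, hU, hq, ?_⟩
  have hQE := nondegenerate_restrict hnd
  have h0 : ∀ z ∈ U.comap E.subtype, Q.restrict E z = 0 := fun z hz => hq z hz
  have h1 := Submodule.finrank_mono (le_perp_of_singular h0)
  have h2 := finrank_perp hQE (U.comap E.subtype)
  have h3 : Module.finrank F (U.comap E.subtype) = Module.finrank F U :=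
    (Submodule.comapSubtypeEquivOfLe hU).finrank_eq
  omega

end

theorem row_max [Fintype F] {n : ℕ} (hn : 13 ≤ n) (Q : QuadraticForm F (Fin n → F))
    (hQ : (polarBilin Q).Nondegenerate) {t : ℕ} (k : ℕ) (hk : 2 ≤ k) (D : Fin t → Submodule F (Fin n → F))
    (hD : IsOrthogonalMDecomposition ⇑Q k D) (hko : Odd k → Odd (Fintype.card F))
    (h2 : k = 2 → Fintype.card F ≠ 3) (h2' : k = 2 → (∀ i, ¬ IsPlusTypeOn ⇑Q (D i)) ∨ 7 ≤ Fintype.card F)
    (h3 : k = 3 → Fintype.card F ≠ 3)
    (h4 : k = 4 → Fintype.card F = 2 → ∀ i, ¬ IsPlusTypeOn ⇑Q (D i)) :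
    IsMaximalIn (omegaGL ⇑Q) (decompositionStabilizer D ⊓ omegaGL ⇑Q) := by
  have hcard : t * k = n := by
    rw [OMax.mul_eq_finrank hD.decomp.decomp]; simp
  have hfr : Module.finrank F (Fin n → F) = n := by simp
  have ht : 2 ≤ t := hD.decomp.decomp.two_le
  have hF : OMax.IsFrame Q k D := OMax.isFrame_of_decomp hD
  refine OMax.isMaximalIn_of_abstract Q (Cfsg.Geo.decompositionStabilizer D)
    (fun g => ∃ σ : Equiv.Perm (Fin t), ∀ i, OMax.act g (D i) = D (σ i))
    (OMax.mem_decompStab_iff _ D) ?_ ?_
  · refine proper_of_not_le Q ?_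
    exact OCase.not_omegaGL_le_decompositionStabilizer hQ (by rw [Fintype.card_fin]; omega)
      hD.decomp.decomp
  · intro M _ hHM hM
    have C : DC Q M k D := ⟨hQ, by rw [hfr]; omega, hk, hF, OMax.isom_of_decomp hD, hHM⟩
    have hcF : Nat.card F = Fintype.card F := Nat.card_eq_fintype_card
    by_cases hk2 : k = 2
    · subst hk2
      refine C.two_max (fun i => ⟨hF.dim i, hF.nondeg i, ?_⟩) (by omega) hM
      rw [hcF]
      rcases h2' rfl with h | h
      · right
        refine ⟨fun x hx hqx => ?_, h2 rfl⟩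
        by_contra hx0
        apply h i
        refine ⟨Submodule.span F {x}, ?_, ?_, ?_⟩
        · rw [Submodule.span_singleton_le_iff_mem]; exact hx
        · intro z hz
          obtain ⟨r, rfl⟩ := Submodule.mem_span_singleton.1 hz
          rw [qsmul, hqx, mul_zero]
        · rw [finrank_span_singleton hx0, hF.dim i]
      · exact Or.inl h
    by_cases hodd : Odd (Fintype.card F)
    · have h20 : (2 : F) ≠ 0 := Orth.two_ne_zero_of_odd hodd
      refine OMax.frame_maximal ⟨hQ, h20, by rw [hfr]; omega, by omega, ?_, hF, hHM⟩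
        (OMax.isom_of_decomp hD) hM
      by_cases h4' : 4 ≤ k
      · exact Or.inl h4'
      · right
        have h3' := h3 (by omega)
        have h1 : 1 < Fintype.card F := Fintype.one_lt_card
        obtain ⟨a, ha⟩ := hodd
        omega
    · have hkev : ¬ Odd k := fun h => hodd (hko h)
      rw [Nat.not_odd_iff_even] at hkev
      have h20 : (2 : F) = 0 := by
        by_contra h20
        apply hodd
        rcases FiniteField.even_card_iff_char_two (F := F) with h
        by_contra hodd'
        rw [Nat.not_odd_iff_even] at hodd'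
        have h5 : ringChar F = 2 := h.2 (Nat.even_iff.1 hodd')
        exact h20 (by have := ringChar.Nat.cast_ringChar (R := F); rw [h5] at this; exact_mod_cast this)
      have hk4 : 4 ≤ k := by
        obtain ⟨a, ha⟩ := hkev
        omega
      refine C.four_max (fun i => ⟨h20, hF.nondeg i, by rw [hF.dim]; exact hk4, ?_⟩) ht hM
      rw [hcF, hF.dim]
      by_cases hc : 2 < Fintype.card F
      · exact Or.inl hc
      by_cases hk6 : 6 ≤ k
      · exact Or.inr (Or.inl hk6)
      have h1 : 1 < Fintype.card F := Fintype.one_lt_card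
      have hk4' : k = 4 := by
        obtain ⟨a, ha⟩ := hkev
        omega
      exact Or.inr (Or.inr fun U hU hq => finrank_le_one_of_not_plus (hF.nondeg i)
        (by rw [hF.dim, hk4']) (h4 hk4' (by omega) i) U hU hq)

end Cfsg.Agent.ODec
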