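import Cfsg.Agent.OMax.Max

/-!
Overgroups of stabilisers of orthogonal frames (all characteristics): classes of reflections.
-/

set_option autoImplicit false
set_option linter.unusedSectionVars false
set_option linter.unusedVariables false

namespace Cfsg.Agent.ODec

open QuadraticMap Cfsg.Agent.Orth Cfsg.Agent.OMax

variable {F V : Type*} [Field F] [AddCommGroup V] [Module F V]

/-- `g` permutes the members of the frame. -/
def Pres {Q : QuadraticForm F V} {t : ℕ} (D : Fin t → Submodule F V) (g : OGrp Q) : Prop :=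
  ∃ σ : Equiv.Perm (Fin t), ∀ i, act g (D i) = D (σ i)

section Pres

variable [Finite F] {Q : QuadraticForm F V} {t k : ℕ} {D : Fin t → Submodule F V}

theorem Pres.mul {g h : OGrp Q} (hg : Pres D g) (hh : Pres D h) : Pres D (g * h) := by
  obtain ⟨σ, hσ⟩ := hg
  obtain ⟨τ, hτ⟩ := hh
  exact ⟨τ.trans σ, fun i => by rw [act_mul, hτ, hσ]; rfl⟩

theorem Pres.inv {g : OGrp Q} (hg : Pres D g) : Pres D g⁻¹ := by
  obtain ⟨σ, hσ⟩ := hg
  refine ⟨σ.symm, fun i => ?_⟩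
  have h := hσ (σ.symm i)
  rw [Equiv.apply_symm_apply] at h
  rw [← h, ← act_mul, inv_mul_cancel, act_one]

theorem Pres.mem {g : OGrp Q} (hg : Pres D g) {i : Fin t} {x : V} (hx : x ∈ D i) :
    ∃ j, (g : V ≃ₗ[F] V) x ∈ D j := by
  obtain ⟨σ, hσ⟩ := hg
  exact ⟨σ i, by rw [← hσ]; exact apply_mem_act hx⟩

variable [FiniteDimensional F V]

theorem Pres.of_forall (hD : IsFrame Q k D) (hk : 1 ≤ k) {g : OGrp Q}
    (h : ∀ i, ∃ l, ∀ x ∈ D i, (g : V ≃ₗ[F] V) x ∈ D l) : Pres D g := by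
  choose σ hσ using h
  have hσ' : ∀ i, act g (D i) = D (σ i) := fun i =>
    act_eq_of_forall (hσ i) (by rw [hD.dim, hD.dim])
  have hinj : Function.Injective σ := by
    intro i i' h
    by_contra hii
    have h1 : act g (D i) = act g (D i') := by rw [hσ', hσ', h]
    obtain ⟨x, hx, hx0⟩ := hD.exists_ne hk i
    have h2 : (g : V ≃ₗ[F] V) x ∈ act g (D i') := by rw [← h1]; exact apply_mem_act hx
    have h3 : x ∈ D i' := by
      have := mem_act.1 h2
      rwa [coe_inv_apply_self] at this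
    exact hx0 (hD.disj hii hx h3)
  exact ⟨Equiv.ofBijective σ (Finite.injective_iff_bijective.1 hinj), hσ'⟩

theorem Pres.of_id {g : OGrp Q} (h : ∀ i, ∀ x ∈ D i, (g : V ≃ₗ[F] V) x ∈ D i) : Pres D g :=
  ⟨1, fun i => act_eq_of_forall (h i) rfl⟩

/-- the component of a vector orthogonal to a member vanishes -/
theorem comp_eq_zero (hD : IsFrame Q k D) {c : Fin t → V} (hc : ∀ i, c i ∈ D i) {j : Fin t}
    (h : ∀ y ∈ D j, polar Q (∑ i, c i) y = 0) : c j = 0 := by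
  have : c j ∈ D j ⊓ perp Q (D j) := ⟨hc j, fun y hy => by
    change polar Q y (c j) = 0
    rw [pc, ← hD.polar_comp hc j hy]; exact h y hy⟩
  rw [hD.nondeg j] at this; exact this

theorem comp_unique (hD : IsFrame Q k D) {c d : Fin t → V} (hc : ∀ i, c i ∈ D i)
    (hd : ∀ i, d i ∈ D i) (h : ∑ i, c i = ∑ i, d i) : c = d := by
  funext j
  have h1 : (∑ i, (c i - d i)) = 0 := by rw [Finset.sum_sub_distrib, h, sub_self]
  have h2 := comp_eq_zero hD (c := fun i => c i - d i) (fun i => (D i).sub_mem (hc i) (hd i)) (j := j)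
    (fun y hy => by rw [h1, polar_zero_left])
  exact sub_eq_zero.1 h2

theorem refl_mem_D (hD : IsFrame Q k D) {i : Fin t} {v : V} (hv : v ∈ D i) (hq : Q v ≠ 0)
    (l : Fin t) {x : V} (hx : x ∈ D l) : (refl Q v hq : V ≃ₗ[F] V) x ∈ D l := by
  by_cases hil : l = i
  · subst hil
    rw [refl_apply]
    exact (D l).sub_mem hx ((D l).smul_mem _ hv)
  · rw [refl_apply_of_ortho hq (hD.orth l i hil x hx v hv)]
    exact hx

theorem refl_pres (hD : IsFrame Q k D) {i : Fin t} {v : V} (hv : v ∈ D i) (hq : Q v ≠ 0) :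
    Pres D (refl Q v hq) :=
  Pres.of_id fun l x hx => refl_mem_D hD hv hq l hx

end Pres

/-- The hypotheses on an overgroup `M` of the stabiliser of a frame. -/
structure DC [Finite F] [FiniteDimensional F V] (Q : QuadraticForm F V) (M : Subgroup (OGrp Q))
    {t : ℕ} (k : ℕ) (D : Fin t → Submodule F V) : Prop where
  hQ : (polarBilin Q).Nondegenerate
  hn : 7 ≤ Module.finrank F V
  hk : 2 ≤ k
  hD : IsFrame Q k D
  hI : Isom Q D
  hH : ∀ g ∈ commutator (OGrp Q), Pres D g → g ∈ M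

/-- The class of reflections of `u` modulo `M`. -/
structure Cl {Q : QuadraticForm F V} (M : Subgroup (OGrp Q)) (u c : V) : Prop where
  q : Q c ≠ 0
  qu : Q u ≠ 0
  sq : IsSquare (Q c * Q u)
  mem : Orth.refl Q c q * Orth.refl Q u qu ∈ M

/-- The class is invariant under `M`. -/
def Inv {Q : QuadraticForm F V} (M : Subgroup (OGrp Q)) (u : V) : Prop :=
  ∀ g ∈ M, ∀ c, Cl M u c → Cl M u ((g : V ≃ₗ[F] V) c)

section Cls

variable {Q : QuadraticForm F V} {M : Subgroup (OGrp Q)} {u : V}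

theorem sq_of_sq_mul {a b c : F} (hb : b ≠ 0) (h1 : IsSquare (a * b)) (h2 : IsSquare (c * b)) :
    IsSquare (a * c) := by
  obtain ⟨x, hx⟩ := h1
  obtain ⟨y, hy⟩ := h2
  refine ⟨x * y / b, ?_⟩
  have h3 : a * c = (a * b) * (c * b) / (b * b) := by
    field_simp
  rw [h3, hx, hy]
  field_simp

theorem Cl.mul_mem {b c : V} (hb : Cl M u b) (hc : Cl M u c) :
    Orth.refl Q b hb.q * Orth.refl Q c hc.q ∈ M := by
  have h1 := M.mul_mem hb.mem (M.inv_mem hc.mem)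
  rwa [mul_inv_rev, refl_inv, refl_inv, ← mul_assoc, mul_assoc (Orth.refl Q b hb.q), refl_mul_self,
    mul_one] at h1

theorem Cl.sq_mul {b c : V} (hb : Cl M u b) (hc : Cl M u c) : IsSquare (Q b * Q c) :=
  sq_of_sq_mul hb.qu hb.sq hc.sq

theorem Cl.self (hu : Q u ≠ 0) : Cl M u u :=
  ⟨hu, hu, ⟨Q u, rfl⟩, by rw [refl_mul_self]; exact M.one_mem⟩

theorem Cl.conj {b : V} {g : OGrp Q} (hg : g ∈ M) (hb : Cl M u b)
    (hgu : Cl M u ((g : V ≃ₗ[F] V) u)) : Cl M u ((g : V ≃ₗ[F] V) b) := by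
  have hq : Q ((g : V ≃ₗ[F] V) b) ≠ 0 := by rw [OGrp_q]; exact hb.q
  refine ⟨hq, hb.qu, by rw [OGrp_q]; exact hb.sq, ?_⟩
  have h1 := refl_conj g b hb.q
  have h2 := refl_conj g u hb.qu
  have h4 : Orth.refl Q u hb.qu * Orth.refl Q u hb.qu = 1 := refl_mul_self hb.qu
  have h5 := M.mul_mem (M.mul_mem (M.mul_mem hg hb.mem) (M.inv_mem hg)) hgu.mem
  rw [← h2] at h5
  have h6 : g * (Orth.refl Q b hb.q * Orth.refl Q u hb.qu) * g⁻¹ *
      (g * Orth.refl Q u hb.qu * g⁻¹ * Orth.refl Q u hb.qu) =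
      g * Orth.refl Q b hb.q * (Orth.refl Q u hb.qu * Orth.refl Q u hb.qu) * g⁻¹ * Orth.refl Q u hb.qu := by
    group
  rw [h6, h4, mul_one, h1] at h5
  exact h5

theorem Cl.refl {b c : V} (hb : Cl M u b) (hc : Cl M u c) :
    Cl M u ((Orth.refl Q c hc.q : V ≃ₗ[F] V) b) := by
  have hq : Q ((Orth.refl Q c hc.q : V ≃ₗ[F] V) b) ≠ 0 := by rw [OGrp_q]; exact hb.q
  refine ⟨hq, hb.qu, by rw [OGrp_q]; exact hb.sq, ?_⟩
  have h1 := refl_conj (Orth.refl Q c hc.q) b hb.q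
  rw [refl_inv] at h1
  have h5 := M.mul_mem (hc.mul_mem hb) hc.mem
  rw [← mul_assoc, h1] at h5
  exact h5

theorem Cl.smul {b : V} {a : F} (ha : a ≠ 0) (hb : Cl M u b) : Cl M u (a • b) := by
  have hq : Q (a • b) ≠ 0 := by rw [qsmul]; exact mul_ne_zero (mul_ne_zero ha ha) hb.q
  refine ⟨hq, hb.qu, ?_, ?_⟩
  · rw [qsmul, mul_assoc]
    exact IsSquare.mul ⟨a, rfl⟩ hb.sq
  · rw [refl_smul hb.q ha hq]; exact hb.mem

end Cls

section DC

variable [Finite F] [FiniteDimensional F V] {Q : QuadraticForm F V} {M : Subgroup (OGrp Q)}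
  {t k : ℕ} {D : Fin t → Submodule F V} {u : V}

/-- products of reflections in vectors of members of the frame -/
theorem DC.reflProd_mem (C : DC Q M k D) (l : List {v : V // Q v ≠ 0})
    (hl : ∀ v ∈ l, ∃ i, (v : V) ∈ D i) (he : Even l.length) (hs : IsSquare (nrm Q l)) : reflProd Q l ∈ M := by
  refine C.hH _ (reflProd_mem_commutator C.hQ he hs) ?_
  have : ∀ l : List {v : V // Q v ≠ 0}, (∀ v ∈ l, ∃ i, (v : V) ∈ D i) → Pres D (reflProd Q l) := by
    intro l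
    induction l with
    | nil => intro _; rw [reflProd_nil]; exact Pres.of_id fun i x hx => hx
    | cons v l ih =>
      intro h
      rw [reflProd_cons]
      obtain ⟨i, hi⟩ := h v List.mem_cons_self
      exact (refl_pres C.hD hi v.2).mul (ih fun w hw => h w (List.mem_cons_of_mem _ hw))
  exact this l hl

theorem DC.refl_pair (C : DC Q M k D) {i j : Fin t} {b c : V} (hb : b ∈ D i) (hc : c ∈ D j)
    (hqb : Q b ≠ 0) (hqc : Q c ≠ 0) (hsq : IsSquare (Q b * Q c)) :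
    refl Q b hqb * refl Q c hqc ∈ M := by
  have := C.reflProd_mem [⟨b, hqb⟩, ⟨c, hqc⟩] (by
    intro v hv
    simp only [List.mem_cons, List.not_mem_nil, or_false] at hv
    rcases hv with rfl | rfl
    · exact ⟨i, hb⟩
    · exact ⟨j, hc⟩) ⟨1, rfl⟩ (by rw [nrm_cons, nrm_cons, nrm_nil, mul_one]; exact hsq)
  rwa [reflProd_cons, reflProd_cons, reflProd_nil, mul_one] at this

theorem DC.mem_Cl (C : DC Q M k D) {i j : Fin t} {b : V} (hb : b ∈ D i) (hu : u ∈ D j)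
    (hqb : Q b ≠ 0) (hqu : Q u ≠ 0) (hsq : IsSquare (Q b * Q u)) : Cl M u b :=
  ⟨hqb, hqu, hsq, C.refl_pair hb hu hqb hqu hsq⟩

theorem DC.exists_q (C : DC Q M k D) (j : Fin t) (c : F) : ∃ v ∈ D j, Q v = c :=
  sub_q_eq (C.hD.nondeg j) (by rw [C.hD.dim]; exact C.hk) c

/-- Reflections in frame vectors preserve the class as long as some member is free. -/
theorem DC.refl_Cl (C : DC Q M k D) (hinv : Inv M u) {b : V} (hb : Cl M u b) {l : Fin t}
    (hl : ∀ y ∈ D l, polar Q b y = 0) {j : Fin t} {v : V} (hv : v ∈ D j) (hq : Q v ≠ 0) :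
    Cl M u ((refl Q v hq : V ≃ₗ[F] V) b) := by
  obtain ⟨w, hw, hqw⟩ := C.exists_q l (Q v)
  have hqw0 : Q w ≠ 0 := by rw [hqw]; exact hq
  have h1 := hinv _ (C.refl_pair hv hw hq hqw0 ⟨Q v, by rw [hqw]⟩) b hb
  rwa [coe_mul_apply, refl_apply_of_ortho hqw0 (hl w hw)] at h1

/-- The subgroup of `M` preserving a class. -/
def stabCls (M : Subgroup (OGrp Q)) (u : V) : Subgroup (OGrp Q) where
  carrier := {g | g ∈ M ∧ ∀ c, Cl M u c ↔ Cl M u ((g : V ≃ₗ[F] V) c)}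
  one_mem' := ⟨M.one_mem, fun c => Iff.rfl⟩
  mul_mem' := by
    rintro g h ⟨hg, hg'⟩ ⟨hh, hh'⟩
    refine ⟨M.mul_mem hg hh, fun c => ?_⟩
    rw [coe_mul_apply, ← hg', ← hh']
  inv_mem' := by
    rintro g ⟨hg, hg'⟩
    refine ⟨M.inv_mem hg, fun c => ?_⟩
    rw [hg' (((g⁻¹ : OGrp Q) : V ≃ₗ[F] V) c), coe_apply_inv_self]

theorem stabCls_le (M : Subgroup (OGrp Q)) (u : V) : stabCls M u ≤ M := fun _ h => h.1

theorem mem_stabCls {g : OGrp Q} (hg : g ∈ M) (hu : Q u ≠ 0) (h1 : Cl M u ((g : V ≃ₗ[F] V) u))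
    (h2 : Cl M u (((g⁻¹ : OGrp Q) : V ≃ₗ[F] V) u)) : g ∈ stabCls M u := by
  refine ⟨hg, fun c => ⟨fun hc => hc.conj hg h1, fun hc => ?_⟩⟩
  have := hc.conj (M.inv_mem hg) h2
  rwa [coe_inv_apply_self] at this

theorem DC.stab (C : DC Q M k D) {j : Fin t} (hu : u ∈ D j) (hqu : Q u ≠ 0) : DC Q (stabCls M u) k D := by
  have key : ∀ g ∈ commutator (OGrp Q), Pres D g → Cl M u ((g : V ≃ₗ[F] V) u) := by
    intro g _ hp
    obtain ⟨l, hl⟩ := hp.mem hu
    refine C.mem_Cl hl hu (by rw [OGrp_q]; exact hqu) hqu ⟨Q u, by rw [OGrp_q]⟩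
  exact ⟨C.hQ, C.hn, C.hk, C.hD, C.hI, fun g hg hp => mem_stabCls (C.hH g hg hp) hqu (key g hg hp)
    (key g⁻¹ ((commutator (OGrp Q)).inv_mem hg) hp.inv)⟩

theorem Cl_stab (hqu : Q u ≠ 0) (c : V) : Cl (stabCls M u) u c ↔ Cl M u c := by
  constructor
  · rintro ⟨h1, h2, h3, h4⟩
    exact ⟨h1, h2, h3, h4.1⟩
  · intro hc
    refine ⟨hc.q, hc.qu, hc.sq, mem_stabCls hc.mem hqu ?_ ?_⟩
    · have hu := Cl.self (M := M) hqu
      rw [coe_mul_apply]
      exact (hu.refl hu).refl hc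
    · have hu := Cl.self (M := M) hqu
      rw [mul_inv_rev, refl_inv, refl_inv, coe_mul_apply]
      exact (hu.refl hc).refl hu

theorem inv_stab (hqu : Q u ≠ 0) : Inv (stabCls M u) u := by
  intro g hg c hc
  rw [Cl_stab hqu] at hc ⊢
  exact (hg.2 c).1 hc

/-- The fundamental dichotomy: if the case of an invariant class is understood, an element of a proper
overgroup taking one non-singular frame vector to a frame vector preserves the frame. -/
theorem DC.pres_of_mem (C : DC Q M k D)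
    (hcase : ∀ M' : Subgroup (OGrp Q), DC Q M' k D → ∀ (j : Fin t) (u : V), u ∈ D j → Q u ≠ 0 → Inv M' u →
      (∃ g ∈ M', ¬ Pres D g) → commutator (OGrp Q) ≤ M')
    (hM : ¬ commutator (OGrp Q) ≤ M) {i j : Fin t} (hu : u ∈ D i) (hqu : Q u ≠ 0) {m : OGrp Q} (hm : m ∈ M)
    (hmu : (m : V ≃ₗ[F] V) u ∈ D j) : Pres D m := by
  have hC' := C.stab hu hqu
  have h1 : m ∈ stabCls M u := by
    have hu0 := Cl.self (M := M) hqu
    have hmu' : Cl M u ((m : V ≃ₗ[F] V) u) := C.mem_Cl hmu hu (by rw [OGrp_q]; exact hqu) hqu ⟨Q u, by rw [OGrp_q]⟩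
    refine mem_stabCls hm hqu hmu' ?_
    -- `r_{m⁻¹ u} r_u = m⁻¹ (r_u r_{m u}) m`
    have hq : Q (((m⁻¹ : OGrp Q) : V ≃ₗ[F] V) u) ≠ 0 := by rw [OGrp_q]; exact hqu
    refine ⟨hq, hqu, ⟨Q u, by rw [OGrp_q]⟩, ?_⟩
    have h2 := refl_conj m⁻¹ u hqu
    have h3 := refl_conj m u hqu
    have h4 : refl Q (((m⁻¹ : OGrp Q) : V ≃ₗ[F] V) u) hq * refl Q u hqu =
        m⁻¹ * (refl Q u hqu * refl Q ((m : V ≃ₗ[F] V) u) hmu'.q) * m := by
      rw [← h2, ← h3]; group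
    rw [h4]
    exact M.mul_mem (M.mul_mem (M.inv_mem hm) (hu0.mul_mem hmu')) hm
  by_contra hnp
  exact hM ((hcase _ hC' i u hu hqu (inv_stab hqu) ⟨m, h1, hnp⟩).trans (stabCls_le M u))

end DC

end Cfsg.Agent.ODec
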