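import Cfsg.Agent.ODec.CaseA

/-!
Frames of planes: the case of an invariant class of reflections.
-/

set_option autoImplicit false
set_option linter.unusedSectionVars false
set_option linter.unusedVariables false

namespace Cfsg.Agent.ODec

open QuadraticMap Cfsg.Agent.Orth Cfsg.Agent.OMax

variable {F V : Type*} [Field F] [AddCommGroup V] [Module F V]

section

variable [Finite F] [FiniteDimensional F V] {Q : QuadraticForm F V} {M : Subgroup (OGrp Q)}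
  {t k : ℕ} {D : Fin t → Submodule F V} {u : V}

/-- Two vectors of the class with singular difference give a Siegel transformation. -/
theorem Cl.hasE {b z : V} (hb : Cl M u b) (hbz : Cl M u (b - z)) (hz : Q z = 0) (hqb : Q (b - z) = Q b) :
    HasE M z ((Q b)⁻¹ • b) := by
  have hq := hb.q
  have h1 : polar Q b z = 0 := by
    rw [qsub, hz] at hqb
    linear_combination -hqb
  have h2 : Q ((Q b)⁻¹ • z) = 0 := by rw [qsmul, hz, mul_zero]
  have h3 : polar Q ((Q b)⁻¹ • z) b = 0 := by rw [psl, pc, h1, mul_zero]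
  have h4 : b - Q b • (Q b)⁻¹ • z = b - z := by
    rw [smul_smul, mul_inv_cancel₀ hq, one_smul]
  have h5 : HasE M ((Q b)⁻¹ • z) b := by
    refine ⟨h2, h3, ?_⟩
    rw [eich_eq_refl_mul h2 h3 hq (by rw [h4]; exact hbz.q)]
    have h6 := hb.mul_mem hbz
    have h7 : Orth.refl Q (b - z) hbz.q = Orth.refl Q (b - Q b • (Q b)⁻¹ • z) (by rw [h4]; exact hbz.q) := by
      congr 1
      exact h4.symm
    rwa [h7] at h6
  exact (hasE_smul_left (inv_ne_zero hq)).1 h5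

/-- Case I: a singular displacement. -/
theorem DC.of_sub (C : DC Q M 2 D) (hG : ∀ i, Good Q (D i)) (ht : 7 ≤ t) {b z : V} (hb : Cl M u b)
    (hbz : Cl M u (b - z)) (hz : Q z = 0) (hz0 : z ≠ 0) (hqb : Q (b - z) = Q b) (I : Finset (Fin t))
    (hI : I.card ≤ 4) (hzI : ∀ i, i ∉ I → ∀ y ∈ D i, polar Q z y = 0) {l₀ : Fin t} (hl₀ : l₀ ∉ I)
    {x₀ : V} (hx₀ : x₀ ∈ D l₀) (hbx : polar Q b x₀ ≠ 0) : commutator (OGrp Q) ≤ M := by
  have hE := hb.hasE hbz hz hqb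
  obtain ⟨v, hv, hqv⟩ := sub_nonsing (hG l₀).nd (by rw [(hG l₀).dim]; omega)
  obtain ⟨x, hx, hqx, hvx, hli, -⟩ := (hG l₀).exists_rot hv hqv
  have hqx0 : Q x ≠ 0 := by rw [hqx]; exact hqv
  have hM := C.refl_pair hv hx hqv hqx0 ⟨Q v, by rw [hqx]⟩
  have e1 : ((refl Q v hqv * refl Q x hqx0 : OGrp Q) : V ≃ₗ[F] V) z = z := by
    rw [coe_mul_apply, refl_apply_of_ortho hqx0 (hzI l₀ hl₀ x hx), refl_apply_of_ortho hqv (hzI l₀ hl₀ v hv)]
  have h1 := hE.conj hM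
  rw [e1] at h1
  have h2 := hE.sub h1
  obtain ⟨s, hs⟩ : ∃ s, s = (Q b)⁻¹ • b := ⟨_, rfl⟩
  rw [← hs] at h2
  have e2 : s - ((refl Q v hqv * refl Q x hqx0 : OGrp Q) : V ≃ₗ[F] V) s =
      ((Q v)⁻¹ * polar Q (s - ((Q x)⁻¹ * polar Q s x) • x) v) • v + ((Q x)⁻¹ * polar Q s x) • x := by
    rw [coe_mul_apply, refl_apply, refl_apply]; abel
  refine C.spread hG ht I hI hz hz0 hzI hl₀ (y₀ := s - ((refl Q v hqv * refl Q x hqx0 : OGrp Q) : V ≃ₗ[F] V) s)
    ?_ ?_ h2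
  · rw [e2]
    exact (D l₀).add_mem ((D l₀).smul_mem _ hv) ((D l₀).smul_mem _ hx)
  · rw [e2]
    intro h3
    obtain ⟨h4, h5⟩ := hli _ _ h3
    have h6 : polar Q s x = 0 := (mul_eq_zero.1 h5).resolve_left (inv_ne_zero hqx0)
    rw [h6, mul_zero, zero_smul, sub_zero] at h4
    have h7 : polar Q s v = 0 := (mul_eq_zero.1 h4).resolve_left (inv_ne_zero hqv)
    obtain ⟨p, r, rfl⟩ := plane_span_of_li (hG l₀).dim hv hx hli x₀ hx₀
    rw [hs, psl] at h6 h7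
    have h8 := (mul_eq_zero.1 h6).resolve_left (inv_ne_zero hb.q)
    have h9 := (mul_eq_zero.1 h7).resolve_left (inv_ne_zero hb.q)
    apply hbx
    rw [par, psr, psr, h8, h9]; ring

theorem refl_of_eq {b z : V} (hz : Q z ≠ 0) (h : polar Q b z = Q z) :
    (refl Q z hz : V ≃ₗ[F] V) b = b - z := by
  rw [refl_apply, h, inv_mul_cancel₀ hz, one_smul]

/-- Anisotropy is the same for all members. -/
theorem DC.aniso_iff (C : DC Q M k D) (i j : Fin t) :
    (∀ x ∈ D i, Q x = 0 → x = 0) ↔ (∀ x ∈ D j, Q x = 0 → x = 0) := by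
  have key : ∀ i j : Fin t, (∀ x ∈ D i, Q x = 0 → x = 0) → (∀ x ∈ D j, Q x = 0 → x = 0) := by
    intro i j h x hx hq
    obtain ⟨φ, hφ⟩ := C.hI j i
    have h1 := h _ (φ ⟨x, hx⟩).2 (by rw [hφ]; exact hq)
    have h2 : φ ⟨x, hx⟩ = 0 := Subtype.ext h1
    have h3 := φ.map_eq_zero_iff.1 h2
    exact congrArg Subtype.val h3
  exact ⟨key i j, key j i⟩

/-- Case I with at least three components. -/
theorem DC.three (C : DC Q M 2 D) (hG : ∀ i, Good Q (D i)) (ht : 7 ≤ t) (hinv : Inv M u) {b : V}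
    (hb : Cl M u b) {c : Fin t → V} (hc : ∀ i, c i ∈ D i) (hsum : b = ∑ i, c i) {i₁ i₂ i₃ : Fin t}
    (h12 : i₁ ≠ i₂) (h13 : i₁ ≠ i₃) (h23 : i₂ ≠ i₃) (h1 : c i₁ ≠ 0) (h2 : c i₂ ≠ 0) (h3 : c i₃ ≠ 0) :
    commutator (OGrp Q) ≤ M := by
  classical
  have hpol : ∀ l, ∀ d ∈ D l, polar Q b d = polar Q (c l) d := by
    intro l d hd; rw [hsum]; exact C.hD.polar_comp hc l hd
  have hcomp : ∀ (i : Fin t) (x : V), x ∈ D i → ∀ j, j ≠ i → ∀ y ∈ D j, polar Q x y = 0 :=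
    fun i x hx j hj y hy => C.hD.orth i j (Ne.symm hj) x hx y hy
  by_cases hsing : ∃ i, c i ≠ 0 ∧ Q (c i) = 0
  · -- a singular component
    obtain ⟨i, hi0, hqi⟩ := hsing
    have h7 : 7 ≤ Nat.card F := by
      rcases (hG i).good with h | ⟨h, -⟩
      · exact h
      · exact absurd (h _ (hc i) hqi) hi0
    obtain ⟨l, hli, hl0⟩ : ∃ l, l ≠ i ∧ c l ≠ 0 := by
      by_cases h : i₁ = i
      · exact ⟨i₂, by rw [← h]; exact Ne.symm h12, h2⟩
      · exact ⟨i₁, h, h1⟩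
    obtain ⟨f, hf, hqf, hef⟩ := sub_partner (hG i).nd (hc i) hqi hi0
    obtain ⟨s, hs0, hs1, hsm, -⟩ := exists_avoid h7 (-1 : F) 0
    have hfe : polar Q f (c i) = 1 := by rw [pc, hef]
    have hee : polar Q (c i) (c i) = 0 := by rw [pself, hqi, mul_zero]
    have hff : polar Q f f = 0 := by rw [pself, hqf, mul_zero]
    have hq1 : Q (c i - (s * s) • f) = -(s * s) := by rw [qsub, qsmul, psr, hqi, hqf, hef]; ring
    have hq2 : Q (c i - f) = -1 := by rw [qsub, hqi, hqf, hef]; ring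
    have hss0 : s * s ≠ 0 := mul_ne_zero hs0 hs0
    have hq10 : Q (c i - (s * s) • f) ≠ 0 := by rw [hq1]; exact neg_ne_zero.2 hss0
    have hq20 : Q (c i - f) ≠ 0 := by rw [hq2]; exact neg_ne_zero.2 one_ne_zero
    have hm1 : c i - (s * s) • f ∈ D i := (D i).sub_mem (hc i) ((D i).smul_mem _ hf)
    have hm2 : c i - f ∈ D i := (D i).sub_mem (hc i) hf
    have hM := C.refl_pair hm1 hm2 hq10 hq20 ⟨s, by rw [hq1, hq2]; ring⟩
    have hss1 : (s * s)⁻¹ ≠ 1 := by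
      intro h
      have h4 : s * s = 1 := inv_eq_one.1 h
      have h5 : (s - 1) * (s + 1) = 0 := by linear_combination h4
      rcases mul_eq_zero.1 h5 with h6 | h6
      · exact hs1 (sub_eq_zero.1 h6)
      · exact hsm (eq_neg_of_add_eq_zero_left h6)
    have e1 : ((refl Q _ hq10 * refl Q _ hq20 : OGrp Q) : V ≃ₗ[F] V) b = b - (1 - (s * s)⁻¹) • c i := by
      have h4 : (refl Q _ hq20 : V ≃ₗ[F] V) b = b - (c i - f) := by
        rw [refl_apply, hpol i _ hm2, pdr, hee, hef, hq2]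
        norm_num
      rw [coe_mul_apply, h4, refl_apply, pdl, hpol i _ hm1, pdr, psr, hee, hef, pdl, pdr, pdr, psr, psr,
        hee, hef, hff, hfe, hq1]
      have h5 : (-(s * s))⁻¹ * (0 - s * s * 1 - (0 - s * s * 1 - (1 - s * s * 0))) = -(s * s)⁻¹ := by
        field_simp
        ring
      rw [h5]
      have h6 : (s * s)⁻¹ * (s * s) = 1 := inv_mul_cancel₀ hss0
      have h8 : (-(s * s)⁻¹) • (c i - (s * s) • f) = -((s * s)⁻¹ • c i) + ((s * s)⁻¹ * (s * s)) • f := by module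
      rw [h8, h6]
      module
    have hbz : Cl M u (b - (1 - (s * s)⁻¹) • c i) := by rw [← e1]; exact hinv _ hM _ hb
    obtain ⟨x₀, hx₀, -, hcx⟩ := Good.exists_q_nonortho C.hD hG (hc l) hl0
    refine C.of_sub hG ht hb hbz (by rw [qsmul, hqi, mul_zero]) ?_ (by rw [← e1, OGrp_q]) {i} (by simp) ?_
      (l₀ := l) (by simpa using hli) hx₀ (by rw [hpol l _ hx₀]; exact hcx)
    · exact smul_ne_zero (sub_ne_zero.2 (Ne.symm hss1)) hi0
    · intro j hj y hy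
      rw [Finset.mem_singleton] at hj
      rw [psl, hcomp i _ (hc i) j hj y hy, mul_zero]
  · push Not at hsing
    -- non-singular components
    have hpair : ∀ i j : Fin t, c i ≠ 0 → c j ≠ 0 → ∃ z₁ ∈ D i, ∃ z₂ ∈ D j, Q z₁ ≠ 0 ∧ Q z₂ ≠ 0 ∧
        polar Q b z₁ = Q z₁ ∧ polar Q b z₂ = Q z₂ ∧ Q z₁ + Q z₂ = 0 := by
      intro i j hi hj
      obtain ⟨z₁, hz₁, z₂, hz₂, h4, h5, h6, h7, h8⟩ := pair_exists (hG i) (hG j) (C.aniso_iff i j) (hc i) (hc j)
        (hsing i hi) (hsing j hj)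
      exact ⟨z₁, hz₁, z₂, hz₂, h4, h5, by rw [hpol i _ hz₁]; exact h6, by rw [hpol j _ hz₂]; exact h7, h8⟩
    by_cases hfull : ∀ l, c l ≠ 0
    · -- full support: four components
      obtain ⟨j₁, -⟩ := exists_not_mem_finset (∅ : Finset (Fin t)) (by simp; omega)
      obtain ⟨j₂, hj₂⟩ := exists_not_mem_finset ({j₁} : Finset (Fin t)) (by simp; omega)
      obtain ⟨j₃, hj₃⟩ := exists_not_mem_finset ({j₁, j₂} : Finset (Fin t))
        (lt_of_le_of_lt Finset.card_le_two (by omega))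
      obtain ⟨j₄, hj₄⟩ := exists_not_mem_finset ({j₁, j₂, j₃} : Finset (Fin t))
        (lt_of_le_of_lt Finset.card_le_three (by omega))
      obtain ⟨j₅, hj₅⟩ := exists_not_mem_finset ({j₁, j₂, j₃, j₄} : Finset (Fin t))
        (lt_of_le_of_lt Finset.card_le_four (by omega))
      simp only [Finset.mem_insert, Finset.mem_singleton, not_or] at hj₂ hj₃ hj₄ hj₅
      obtain ⟨z₁, hz₁, z₂, hz₂, hq₁, hq₂, hb₁, hb₂, h12'⟩ := hpair j₁ j₂ (hfull _) (hfull _)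
      obtain ⟨z₃, hz₃, z₄, hz₄, hq₃, hq₄, hb₃, hb₄, h34'⟩ := hpair j₃ j₄ (hfull _) (hfull _)
      have hM := C.reflProd_mem [⟨z₁, hq₁⟩, ⟨z₂, hq₂⟩, ⟨z₃, hq₃⟩, ⟨z₄, hq₄⟩] (by
        intro v hv
        simp only [List.mem_cons, List.not_mem_nil, or_false] at hv
        rcases hv with rfl | rfl | rfl | rfl
        · exact ⟨j₁, hz₁⟩
        · exact ⟨j₂, hz₂⟩
        · exact ⟨j₃, hz₃⟩
        · exact ⟨j₄, hz₄⟩) ⟨2, rfl⟩ (by
          refine ⟨Q z₁ * Q z₃, ?_⟩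
          simp only [nrm_cons, nrm_nil, mul_one]
          have e1 : Q z₂ = -Q z₁ := by linear_combination h12'
          have e2 : Q z₄ = -Q z₃ := by linear_combination h34'
          rw [e1, e2]; ring)
      have o12 := hcomp j₂ z₂ hz₂ j₁ (Ne.symm hj₂) z₁ hz₁
      have o13 := hcomp j₃ z₃ hz₃ j₁ (Ne.symm hj₃.1) z₁ hz₁
      have o14 := hcomp j₄ z₄ hz₄ j₁ (Ne.symm hj₄.1) z₁ hz₁
      have o23 := hcomp j₃ z₃ hz₃ j₂ (Ne.symm hj₃.2) z₂ hz₂
      have o24 := hcomp j₄ z₄ hz₄ j₂ (Ne.symm hj₄.2.1) z₂ hz₂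
      have o34 := hcomp j₄ z₄ hz₄ j₃ (Ne.symm hj₄.2.2) z₃ hz₃
      have e1 : ((reflProd Q [⟨z₁, hq₁⟩, ⟨z₂, hq₂⟩, ⟨z₃, hq₃⟩, ⟨z₄, hq₄⟩] : OGrp Q) : V ≃ₗ[F] V) b =
          b - (z₁ + z₂ + z₃ + z₄) := by
        simp only [reflProd_cons, reflProd_nil, mul_one]
        rw [coe_mul_apply, coe_mul_apply, coe_mul_apply, refl_of_eq hq₄ hb₄,
          refl_of_eq hq₃ (by rw [pdl, hb₃, o34, sub_zero]),
          refl_of_eq hq₂ (by rw [pdl, pdl, hb₂, o24, o23, sub_zero, sub_zero]),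
          refl_of_eq hq₁ (by rw [pdl, pdl, pdl, hb₁, o14, o13, o12, sub_zero, sub_zero, sub_zero])]
        abel
      have hbz : Cl M u (b - (z₁ + z₂ + z₃ + z₄)) := by rw [← e1]; exact hinv _ hM _ hb
      obtain ⟨x₀, hx₀, -, hcx⟩ := Good.exists_q_nonortho C.hD hG (hc j₅) (hfull j₅)
      refine C.of_sub hG ht hb hbz ?_ ?_ (by rw [← e1, OGrp_q]) {j₁, j₂, j₃, j₄} Finset.card_le_four ?_
        (l₀ := j₅) (by simp only [Finset.mem_insert, Finset.mem_singleton, not_or]; exact hj₅) hx₀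
        (by rw [hpol _ _ hx₀]; exact hcx)
      · rw [qadd, qadd, qadd, pal, pal, pal, pc Q z₁ z₂, pc Q z₁ z₃, pc Q z₂ z₃, pc Q z₁ z₄, pc Q z₂ z₄, pc Q z₃ z₄,
          o12, o13, o14, o23, o24, o34]
        linear_combination h12' + h34'
      · intro h0
        have h4 : polar Q b (z₁ + z₂ + z₃ + z₄) = 0 := by rw [h0, polar_zero_right]
        have h5 : polar Q (z₁ + z₂ + z₃ + z₄) z₁ = 0 := by rw [h0, polar_zero_left]
        -- use the component in `D j₁`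
        have h6 := hcomp j₁ z₁ hz₁
        have h7 : z₁ = -(z₂ + z₃ + z₄) := by
          rw [eq_neg_iff_add_eq_zero]; rw [← h0]; abel
        have h8 : Q z₁ = 0 := by
          obtain ⟨x, hx, -, hzx⟩ := Good.exists_q_nonortho C.hD hG hz₁ (by rintro rfl; exact hq₁ (QuadraticMap.map_zero Q))
          exfalso
          apply hzx
          rw [h7, polar_neg_left, pal, pal, hcomp j₂ z₂ hz₂ j₁ (Ne.symm hj₂) x hx,
            hcomp j₃ z₃ hz₃ j₁ (Ne.symm hj₃.1) x hx, hcomp j₄ z₄ hz₄ j₁ (Ne.symm hj₄.1) x hx]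
          ring
        exact hq₁ h8
      · intro i hi y hy
        simp only [Finset.mem_insert, Finset.mem_singleton, not_or] at hi
        rw [pal, pal, pal, hcomp j₁ z₁ hz₁ i hi.1 y hy, hcomp j₂ z₂ hz₂ i hi.2.1 y hy,
          hcomp j₃ z₃ hz₃ i hi.2.2.1 y hy, hcomp j₄ z₄ hz₄ i hi.2.2.2 y hy]
        ring
    · -- a free member
      push Not at hfull
      obtain ⟨l, hl⟩ := hfull
      have hbl : ∀ y ∈ D l, polar Q b y = 0 := by
        intro y hy; rw [hpol l y hy, hl, polar_zero_left]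
      obtain ⟨z₁, hz₁, z₂, hz₂, hq₁, hq₂, hb₁, hb₂, h12'⟩ := hpair i₁ i₂ h1 h2
      have hl2 : l ≠ i₂ := by rintro rfl; exact h2 hl
      have hl1 : l ≠ i₁ := by rintro rfl; exact h1 hl
      have o12 := hcomp i₂ z₂ hz₂ i₁ h12 z₁ hz₁
      have c1 := C.refl_Cl hinv hb hbl hz₂ hq₂
      rw [refl_of_eq hq₂ hb₂] at c1
      have c2 := C.refl_Cl hinv c1 (l := l) (fun y hy => by
        rw [pdl, hbl y hy, hcomp i₂ z₂ hz₂ l hl2 y hy, sub_zero]) hz₁ hq₁
      rw [refl_of_eq hq₁ (by rw [pdl, hb₁, o12, sub_zero])] at c2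
      have e1 : b - z₂ - z₁ = b - (z₁ + z₂) := by abel
      rw [e1] at c2
      obtain ⟨x₀, hx₀, -, hcx⟩ := Good.exists_q_nonortho C.hD hG (hc i₃) h3
      have hz : Q (z₁ + z₂) = 0 := by rw [qadd, pc, o12, add_zero]; exact h12'
      refine C.of_sub hG ht hb c2 hz ?_ ?_ {i₁, i₂} (Finset.card_le_two.trans (by omega)) ?_ (l₀ := i₃)
        (by simp only [Finset.mem_insert, Finset.mem_singleton, not_or]; exact ⟨Ne.symm h13, Ne.symm h23⟩) hx₀
        (by rw [hpol _ _ hx₀]; exact hcx)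
      · intro h0
        obtain ⟨x, hx, -, hzx⟩ := Good.exists_q_nonortho C.hD hG hz₁ (by rintro rfl; exact hq₁ (QuadraticMap.map_zero Q))
        apply hzx
        have h7 : z₁ = -z₂ := eq_neg_of_add_eq_zero_left h0
        rw [h7, polar_neg_left, hcomp i₂ z₂ hz₂ i₁ h12 x hx, neg_zero]
      · rw [qsub, hz, par, hb₁, hb₂, h12']; ring
      · intro i hi y hy
        simp only [Finset.mem_insert, Finset.mem_singleton, not_or] at hi
        rw [pal, hcomp i₁ z₁ hz₁ i hi.1 y hy, hcomp i₂ z₂ hz₂ i hi.2 y hy, add_zero]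

end

end Cfsg.Agent.ODec
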