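import Cfsg.Agent.ODec.CaseB

/-!
Frames of planes: the case of an invariant class of reflections, completed.
-/

set_option autoImplicit false
set_option linter.unusedSectionVars false
set_option linter.unusedVariables false

namespace Cfsg.Agent.ODec

open QuadraticMap Cfsg.Agent.Orth Cfsg.Agent.OMax

variable {F V : Type*} [Field F] [AddCommGroup V] [Module F V]

section

variable [Finite F] [FiniteDimensional F V] {Q : QuadraticForm F V} {M : Subgroup (OGrp Q)}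
  {t k : ℕ} {D : Fin t → Submodule F V} {u : V}

theorem eq_zero_of_ortho (hD : IsFrame Q k D) {j : Fin t} {x : V} (hx : x ∈ D j)
    (h : ∀ y ∈ D j, polar Q x y = 0) : x = 0 := by
  have : x ∈ D j ⊓ perp Q (D j) := ⟨hx, fun y hy => by
    change polar Q y x = 0
    rw [pc]; exact h y hy⟩
  rw [hD.nondeg j] at this
  exact this

/-- If the class consists of frame vectors, the group preserves the frame. -/
theorem DC.exists_out (C : DC Q M 2 D) (hG : ∀ i, Good Q (D i)) {j₀ : Fin t} (hu : u ∈ D j₀) (hqu : Q u ≠ 0)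
    (hinv : Inv M u) (hM : ∃ g ∈ M, ¬ Pres D g) : ∃ b, Cl M u b ∧ ∀ i, b ∉ D i := by
  by_contra hcon
  push Not at hcon
  obtain ⟨g, hg, hgp⟩ := hM
  apply hgp
  refine Pres.of_forall C.hD (by omega) fun i => ?_
  obtain ⟨v, hv, hqv⟩ := C.exists_q i (Q u)
  have hqv0 : Q v ≠ 0 := by rw [hqv]; exact hqu
  obtain ⟨x, hx, hqx, hvx, hli, -⟩ := (hG i).exists_rot hv hqv0
  have hqx0 : Q x ≠ 0 := by rw [hqx]; exact hqv0
  have cv := hinv g hg v (C.mem_Cl hv hu hqv0 hqu ⟨Q u, by rw [hqv]⟩)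
  have cx := hinv g hg x (C.mem_Cl hx hu hqx0 hqu ⟨Q u, by rw [hqx, hqv]⟩)
  obtain ⟨l, hl⟩ := hcon _ cv
  obtain ⟨l', hl'⟩ := hcon _ cx
  have hll : l = l' := by
    by_contra h
    have := C.hD.orth l l' h _ hl _ hl'
    rw [OGrp_polar] at this
    exact hvx this
  subst hll
  refine ⟨l, fun y hy => ?_⟩
  obtain ⟨p, r, rfl⟩ := plane_span_of_li (hG i).dim hv hx hli y hy
  rw [map_add, map_smul, map_smul]
  exact (D l).add_mem ((D l).smul_mem _ hl) ((D l).smul_mem _ hl')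

/-- **Case I.** -/
theorem DC.case_one (C : DC Q M 2 D) (hG : ∀ i, Good Q (D i)) (ht : 7 ≤ t) {j₀ : Fin t} (hu : u ∈ D j₀)
    (hqu : Q u ≠ 0) (hinv : Inv M u) (hM : ∃ g ∈ M, ¬ Pres D g) : commutator (OGrp Q) ≤ M := by
  classical
  obtain ⟨b, hb, hbout⟩ := C.exists_out hG hu hqu hinv hM
  obtain ⟨c, hc, hsum⟩ := C.hD.sup b
  -- two components, the first non-singular
  obtain ⟨i₁, i₂, h12, hq1, h2⟩ : ∃ i₁ i₂, i₁ ≠ i₂ ∧ Q (c i₁) ≠ 0 ∧ c i₂ ≠ 0 := by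
    obtain ⟨i₁, h1⟩ : ∃ i, Q (c i) ≠ 0 := by
      by_contra hcon
      push Not at hcon
      apply hb.q
      rw [hsum, C.hD.q_comp hc]
      exact Finset.sum_eq_zero fun i _ => hcon i
    obtain ⟨i₂, h2, h3⟩ : ∃ i, i ≠ i₁ ∧ c i ≠ 0 := by
      by_contra hcon
      push Not at hcon
      apply hbout i₁
      rw [hsum, Finset.sum_eq_single i₁ (fun l _ hl => hcon l hl)
        (fun h => absurd (Finset.mem_univ i₁) h)]
      exact hc i₁
    exact ⟨i₁, i₂, Ne.symm h2, h1, h3⟩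
  have h1 : c i₁ ≠ 0 := by
    intro h; rw [h, QuadraticMap.map_zero] at hq1; exact hq1 rfl
  by_cases h3 : ∃ i₃, i₁ ≠ i₃ ∧ i₂ ≠ i₃ ∧ c i₃ ≠ 0
  · obtain ⟨i₃, h13, h23, h3⟩ := h3
    exact C.three hG ht hinv hb hc hsum h12 h13 h23 h1 h2 h3
  push Not at h3
  have hb12 : b = c i₁ + c i₂ := by
    rw [hsum, ← Finset.add_sum_erase _ _ (Finset.mem_univ i₁),
      ← Finset.add_sum_erase (Finset.univ.erase i₁) _ (Finset.mem_erase.2 ⟨Ne.symm h12, Finset.mem_univ i₂⟩)]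
    have : ∑ x ∈ (Finset.univ.erase i₁).erase i₂, c x = 0 := by
      refine Finset.sum_eq_zero fun i hi => ?_
      rw [Finset.mem_erase, Finset.mem_erase] at hi
      exact h3 i (Ne.symm hi.2.1) (Ne.symm hi.1)
    rw [this, add_zero]
  have hcomp : ∀ (i : Fin t) (x : V), x ∈ D i → ∀ j, j ≠ i → ∀ y ∈ D j, polar Q x y = 0 :=
    fun i x hx j hj y hy => C.hD.orth i j (Ne.symm hj) x hx y hy
  obtain ⟨i₃, hi₃⟩ := exists_not_mem_finset ({i₁, i₂} : Finset (Fin t))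
    (lt_of_le_of_lt Finset.card_le_two (by omega))
  obtain ⟨l, hl⟩ := exists_not_mem_finset ({i₁, i₂, i₃} : Finset (Fin t))
    (lt_of_le_of_lt Finset.card_le_three (by omega))
  simp only [Finset.mem_insert, Finset.mem_singleton, not_or] at hi₃ hl
  obtain ⟨g, hg, hfix, hmap⟩ := C.swap (j := i₃) (l := i₂) hi₃.2
  obtain ⟨x, hx, hgx⟩ := hmap _ (hc i₂)
  have hx0 : x ≠ 0 := by rintro rfl; rw [map_zero] at hgx; exact h2 hgx.symm
  have e1 : ((g⁻¹ : OGrp Q) : V ≃ₗ[F] V) b = c i₁ + x := by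
    have : b = (g : V ≃ₗ[F] V) (c i₁ + x) := by
      rw [map_add, hgx, hfix i₁ (Ne.symm hi₃.1) h12 _ (hc i₁)]; exact hb12
    rw [this, coe_inv_apply_self]
  have hb1 : Cl M u (c i₁ + x) := by rw [← e1]; exact hinv _ (M.inv_mem hg) _ hb
  obtain ⟨x₁, hx₁, hqx₁, hcx₁, hli, w, hw, hqw, hwc⟩ := (hG i₁).exists_rot (hc i₁) hq1
  have hb2 : Cl M u (x₁ + x) := by
    have h4 := C.refl_Cl hinv hb1 (l := l) (fun y hy => by
      rw [pal, hcomp i₁ _ (hc i₁) l hl.1 y hy, hcomp i₃ x hx l hl.2.2 y hy, add_zero]) hw hqw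
    rwa [map_add, hwc, refl_apply_of_ortho hqw (hcomp i₃ x hx i₁ (Ne.symm hi₃.1) w hw)] at h4
  have hb3 := hb2.refl hb
  obtain ⟨b', hb'⟩ : ∃ b', b' = (Orth.refl Q b hb.q : V ≃ₗ[F] V) (x₁ + x) := ⟨_, rfl⟩
  rw [← hb'] at hb3
  have hpol : polar Q (x₁ + x) b = polar Q (c i₁) x₁ := by
    rw [hb12, pal, par, par, pc Q x₁ (c i₁), hcomp i₁ x₁ hx₁ i₂ (Ne.symm h12) _ (hc i₂),
      hcomp i₃ x hx i₁ (Ne.symm hi₃.1) _ (hc i₁), hcomp i₃ x hx i₂ (Ne.symm hi₃.2) _ (hc i₂)]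
    ring
  obtain ⟨μ, hμ⟩ : ∃ μ, μ = (Q b)⁻¹ * polar Q (c i₁) x₁ := ⟨_, rfl⟩
  have hμ0 : μ ≠ 0 := by rw [hμ]; exact mul_ne_zero (inv_ne_zero hb.q) hcx₁
  have hb'' : b' = x₁ + x - μ • (c i₁ + c i₂) := by
    rw [hb', refl_apply, hpol, ← hμ, ← hb12]
  obtain ⟨e, he, hesum⟩ := C.hD.sup b'
  have hep : ∀ l, ∀ d ∈ D l, polar Q b' d = polar Q (e l) d := by
    intro l d hd; rw [hesum]; exact C.hD.polar_comp he l hd
  refine C.three hG ht hinv hb3 he hesum h12 (Ne.symm hi₃.1) (Ne.symm hi₃.2) ?_ ?_ ?_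
  · intro h0
    have h5 : x₁ - μ • c i₁ = 0 := by
      refine eq_zero_of_ortho C.hD ((D i₁).sub_mem hx₁ ((D i₁).smul_mem _ (hc i₁))) fun y hy => ?_
      have h6 := hep i₁ y hy
      rw [h0, polar_zero_left, hb'', pdl, pal, psl, pal, hcomp i₃ x hx i₁ (Ne.symm hi₃.1) y hy,
        hcomp i₂ _ (hc i₂) i₁ h12 y hy, add_zero, add_zero] at h6
      rw [pdl, psl, h6]
    have h6 := hli (-μ) 1 (by rw [← h5]; module)
    exact one_ne_zero h6.2
  · intro h0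
    apply h2
    refine eq_zero_of_ortho C.hD (hc i₂) fun y hy => ?_
    have h6 := hep i₂ y hy
    rw [h0, polar_zero_left, hb'', pdl, pal, psl, pal, hcomp i₃ x hx i₂ (Ne.symm hi₃.2) y hy,
      hcomp i₁ _ (hc i₁) i₂ (Ne.symm h12) y hy, hcomp i₁ x₁ hx₁ i₂ (Ne.symm h12) y hy] at h6
    have h7 : μ * polar Q (c i₂) y = 0 := by linear_combination -h6
    exact (mul_eq_zero.1 h7).resolve_left hμ0
  · intro h0
    apply hx0
    refine eq_zero_of_ortho C.hD hx fun y hy => ?_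
    have h6 := hep i₃ y hy
    rw [h0, polar_zero_left, hb'', pdl, pal, psl, pal, hcomp i₁ x₁ hx₁ i₃ hi₃.1 y hy,
      hcomp i₁ _ (hc i₁) i₃ hi₃.1 y hy, hcomp i₂ _ (hc i₂) i₃ hi₃.2 y hy] at h6
    linear_combination h6

end

end Cfsg.Agent.ODec
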