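import Cfsg.Agent.ODec.TwoB

/-!
Frames of spaces of dimension at least four in characteristic two: non-singular vectors.
-/

set_option autoImplicit false
set_option linter.unusedSectionVars false
set_option linter.unusedVariables false

namespace Cfsg.Agent.ODec

open QuadraticMap Cfsg.Agent.Orth Cfsg.Agent.OMax

variable {F V : Type*} [Field F] [AddCommGroup V] [Module F V]

/-- The even-characteristic spaces for which the stabiliser of a frame is maximal. -/
structure Four (Q : QuadraticForm F V) (E : Submodule F V) : Prop where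
  two : (2 : F) = 0
  nd : E ⊓ perp Q E = ⊥
  dim : 4 ≤ Module.finrank F E
  good : 2 < Nat.card F ∨ 6 ≤ Module.finrank F E ∨
    ∀ U : Submodule F V, U ≤ E → (∀ u ∈ U, Q u = 0) → Module.finrank F U ≤ 1

/-- The complement of a non-degenerate plane with a basis of "isotropic" vectors. -/
theorem compl_pair [Finite F] [FiniteDimensional F V] {Q : QuadraticForm F V} {E : Submodule F V}
    (hE : E ⊓ perp Q E = ⊥) {x y : V} (hx : x ∈ E) (hy : y ∈ E) (hxx : polar Q x x = 0)
    (hyy : polar Q y y = 0) (hxy : polar Q x y = 1) :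
    ∃ E₀ : Submodule F V, (∀ z, z ∈ E₀ ↔ z ∈ E ∧ polar Q x z = 0 ∧ polar Q y z = 0) ∧
      E₀ ⊓ perp Q E₀ = ⊥ ∧ Module.finrank F E ≤ Module.finrank F E₀ + 2 := by
  have hyx : polar Q y x = 1 := by rw [pc]; exact hxy
  set E₀ : Submodule F V := E ⊓ perp Q (Submodule.span F {x, y}) with hE₀
  have hE₀mem : ∀ z, z ∈ E₀ ↔ z ∈ E ∧ polar Q x z = 0 ∧ polar Q y z = 0 := by
    intro z
    rw [hE₀, Submodule.mem_inf, mem_perp]
    constructor
    · rintro ⟨h1, h2⟩
      exact ⟨h1, h2 x (Submodule.subset_span (by simp)), h2 y (Submodule.subset_span (by simp))⟩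
    · rintro ⟨h1, h2, h3⟩
      refine ⟨h1, fun w hw => ?_⟩
      obtain ⟨p, q, rfl⟩ := Submodule.mem_span_pair.1 hw
      rw [pal, psl, psl, h2, h3]; ring
  have hdec : ∀ z ∈ E, z - polar Q y z • x - polar Q x z • y ∈ E₀ := by
    intro z hz
    rw [hE₀mem]
    refine ⟨E.sub_mem (E.sub_mem hz (E.smul_mem _ hx)) (E.smul_mem _ hy), ?_, ?_⟩
    · rw [pdr, pdr, psr, psr, hxx, hxy]; ring
    · rw [pdr, pdr, psr, psr, hyx, hyy]; ring
  refine ⟨E₀, hE₀mem, ?_, ?_⟩
  · rw [eq_bot_iff]
    rintro z ⟨hz, hzp⟩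
    have hz' := (hE₀mem z).1 hz
    have : z ∈ E ⊓ perp Q E := by
      refine ⟨hz'.1, fun w hw => ?_⟩
      have h1 : polar Q (w - polar Q y w • x - polar Q x w • y) z = 0 := hzp _ (hdec w hw)
      rw [pdl, pdl, psl, psl, hz'.2.1, hz'.2.2] at h1
      change polar Q w z = 0
      linear_combination h1
    rw [hE] at this; exact this
  · have h1 : E ≤ E₀ ⊔ Submodule.span F {x, y} := by
      intro z hz
      have : z = (z - polar Q y z • x - polar Q x z • y) + (polar Q y z • x + polar Q x z • y) := by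
        abel
      rw [this]
      refine Submodule.add_mem_sup (hdec z hz) ?_
      exact Submodule.add_mem _ (Submodule.smul_mem _ _ (Submodule.subset_span (by simp)))
        (Submodule.smul_mem _ _ (Submodule.subset_span (by simp)))
    have h3 := Submodule.finrank_mono h1
    have h4 := Submodule.finrank_add_le_finrank_add_finrank E₀ (Submodule.span F {x, y})
    have h5 : Module.finrank F (Submodule.span F {x, y}) ≤ 2 := by
      rw [Submodule.span_insert]
      refine (Submodule.finrank_add_le_finrank_add_finrank _ _).trans ?_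
      have h1 := finrank_span_one_le (F := F) x
      have h2 := finrank_span_one_le (F := F) y
      omega
    omega

section

variable [Finite F] [FiniteDimensional F V] {Q : QuadraticForm F V} {E : Submodule F V}

theorem exists_ne_two (h : 2 < Nat.card F) (κ : F) : ∃ a : F, a ≠ 0 ∧ a ≠ κ := by
  classical
  haveI : Fintype F := Fintype.ofFinite F
  by_contra hcon
  push Not at hcon
  have h1 : (Finset.univ : Finset F) ⊆ {0, κ} := by
    intro a _
    by_cases ha : a = 0
    · simp [ha]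
    · simp [hcon a ha]
  have h2 := (Finset.card_le_card h1).trans Finset.card_le_two
  rw [Finset.card_univ, ← Nat.card_eq_fintype_card] at h2
  omega

theorem exists_pair_one (hE : E ⊓ perp Q E = ⊥) {x : V} (hx : x ∈ E) (hx0 : x ≠ 0) :
    ∃ y ∈ E, polar Q x y = 1 := by
  obtain ⟨b, hb, -, h⟩ := sub_ortho_not hE ⊥ hx (by simpa using hx0)
  exact ⟨b, hb, by rw [pc]; exact h⟩

theorem Four.pself0 (h : Four Q E) (x : V) : polar Q x x = 0 := by rw [pself, h.two, zero_mul]

theorem Four.ne_zero {x : V} (hx : Q x ≠ 0) : x ≠ 0 := by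
  rintro rfl; exact hx (QuadraticMap.map_zero Q)

theorem Four.hyp (h : Four Q E) {x f : V} (hx : x ∈ E) (hf : f ∈ E) (hqx : Q x = 0) (hqf : Q f = 0)
    (hxf : polar Q x f = 1) : ∃ a ∈ E, ∃ a' ∈ E, Q a ≠ 0 ∧ Q a' ≠ 0 ∧ polar Q a a' = 1 ∧
      polar Q x a = 0 ∧ polar Q f a = 0 ∧ polar Q x a' = 0 ∧ polar Q f a' = 0 := by
  obtain ⟨E₀, hmem, hnd, hdim⟩ := compl_pair h.nd hx hf (h.pself0 x) (h.pself0 f) hxf
  have h4 := h.dim
  obtain ⟨a, ha, hqa⟩ := sub_nonsing hnd (by omega)
  obtain ⟨y, hy, hay⟩ := exists_pair_one hnd ha (Four.ne_zero hqa)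
  have hya : polar Q y a = 1 := by rw [pc]; exact hay
  obtain ⟨a', ha', hqa', haa'⟩ : ∃ a' ∈ E₀, Q a' ≠ 0 ∧ polar Q a a' = 1 := by
    by_cases hqy : Q y = 0
    · rcases h.good with h2 | h6 | hU
      · obtain ⟨r, hr0, hr⟩ := exists_ne_two h2 (-(Q a)⁻¹)
        refine ⟨y + r • a, E₀.add_mem hy (E₀.smul_mem _ ha), ?_, ?_⟩
        · rw [qadd, qsmul, psr, hqy, hya]
          intro h0
          have : r * (r * Q a + 1) = 0 := by linear_combination h0
          rcases mul_eq_zero.1 this with h1 | h1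
          · exact hr0 h1
          · apply hr
            field_simp
            linear_combination h1
        · rw [par, psr, h.pself0, hay]; ring
      · obtain ⟨E₁, hmem₁, hnd₁, hdim₁⟩ := compl_pair hnd ha hy (h.pself0 a) (h.pself0 y) hay
        obtain ⟨z, hz, hqz⟩ := sub_q_eq hnd₁ (by omega) (1 : F)
        have hz' := (hmem₁ z).1 hz
        refine ⟨y + z, E₀.add_mem hy hz'.1, ?_, ?_⟩
        · rw [qadd, hqy, hqz, hz'.2.2]
          simp
        · rw [par, hay, hz'.2.1, add_zero]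
      · exfalso
        have hy' := (hmem y).1 hy
        have ha' := (hmem a).1 ha
        have h1 := hU (Submodule.span F {x, y}) (by
          rw [Submodule.span_le]
          intro w hw
          rcases hw with rfl | hw
          · exact hx
          · rw [Set.mem_singleton_iff.1 hw]; exact hy'.1) (by
          intro w hw
          obtain ⟨p, r, rfl⟩ := Submodule.mem_span_pair.1 hw
          rw [qadd, qsmul, qsmul, psl, psr, hqx, hqy, hy'.2.1]; ring)
        rw [finrank_span_pair] at h1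
        · omega
        · intro p r h0
          have h2 : polar Q (p • x + r • y) f = 0 := by rw [h0, polar_zero_left]
          have h3 : polar Q (p • x + r • y) a = 0 := by rw [h0, polar_zero_left]
          rw [pal, psl, psl, hxf, pc Q y f, hy'.2.2] at h2
          rw [pal, psl, psl, hya, ha'.2.1] at h3
          exact ⟨by linear_combination h2, by linear_combination h3⟩
    · exact ⟨y, hy, hqy, hay⟩
  have h1 := (hmem a).1 ha
  have h2 := (hmem a').1 ha'
  exact ⟨a, h1.1, a', h2.1, hqa, hqa', haa', h1.2.1, h1.2.2, h2.2.1, h2.2.2⟩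

theorem Four.ns (h : Four Q E) {c : V} (hc : c ∈ E) : ∃ a ∈ E, ∃ a' ∈ E, Q a ≠ 0 ∧ Q a' ≠ 0 ∧
    polar Q a a' = 1 ∧ polar Q c a = 0 ∧ polar Q c a' = 0 := by
  have h4 := h.dim
  by_cases hc0 : c = 0
  · obtain ⟨e, he, he0, hqe⟩ := sub_singular h.nd (by omega)
    obtain ⟨f, hf, hqf, hef⟩ := sub_partner h.nd he hqe he0
    obtain ⟨a, ha, a', ha', hqa, hqa', haa', -⟩ := h.hyp he hf hqe hqf hef
    exact ⟨a, ha, a', ha', hqa, hqa', haa', by rw [hc0, polar_zero_left], by rw [hc0, polar_zero_left]⟩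
  by_cases hqc : Q c = 0
  · obtain ⟨f, hf, hqf, hcf⟩ := sub_partner h.nd hc hqc hc0
    obtain ⟨a, ha, a', ha', hqa, hqa', haa', h1, -, h2, -⟩ := h.hyp hc hf hqc hqf hcf
    exact ⟨a, ha, a', ha', hqa, hqa', haa', h1, h2⟩
  · obtain ⟨y, hy, hcy⟩ := exists_pair_one h.nd hc hc0
    obtain ⟨E₀, hmem, hnd, hdim⟩ := compl_pair h.nd hc hy (h.pself0 c) (h.pself0 y) hcy
    obtain ⟨p, hp, hqp⟩ := sub_nonsing hnd (by omega)
    obtain ⟨r, hr, hpr⟩ := exists_pair_one hnd hp (Four.ne_zero hqp)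
    have hp' := (hmem p).1 hp
    have hr' := (hmem r).1 hr
    by_cases hqr : Q r = 0
    · refine ⟨p, hp'.1, r + c, E.add_mem hr'.1 hc, hqp, ?_, ?_, hp'.2.1, ?_⟩
      · rw [qadd, hqr, pc Q r c, hr'.2.1]; simpa using hqc
      · rw [par, hpr, pc Q p c, hp'.2.1, add_zero]
      · rw [par, hr'.2.1, h.pself0, add_zero]
    · exact ⟨p, hp'.1, r, hr'.1, hqp, hqr, hpr, hp'.2.1, hr'.2.1⟩

theorem Four.sing_perp (h : Four Q E) {c : V} (hc : c ∈ E) (hqc : Q c ≠ 0) :
    ∃ e ∈ E, e ≠ 0 ∧ Q e = 0 ∧ polar Q e c = 0 := by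
  have h4 := h.dim
  obtain ⟨y, hy, hcy⟩ := exists_pair_one h.nd hc (Four.ne_zero hqc)
  obtain ⟨E₀, hmem, hnd, hdim⟩ := compl_pair h.nd hc hy (h.pself0 c) (h.pself0 y) hcy
  obtain ⟨z, hz, hqz⟩ := sub_nonsing hnd (by omega)
  have hz' := (hmem z).1 hz
  obtain ⟨r, hr⟩ := isSquare_of_two_eq_zero h.two (-(Q z / Q c))
  refine ⟨z + r • c, E.add_mem hz'.1 (E.smul_mem _ hc), ?_, ?_, ?_⟩
  · intro h0
    have h1 : polar Q y (z + r • c) = 0 := by rw [h0, polar_zero_right]
    rw [par, psr, hz'.2.2, pc Q y c, hcy, zero_add, mul_one] at h1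
    rw [h1, zero_smul, add_zero] at h0
    exact Four.ne_zero hqz h0
  · rw [qadd, qsmul, psr, pc Q z c, hz'.2.1, ← hr]; field_simp; ring
  · rw [pal, psl, h.pself0, pc Q z c, hz'.2.1]; ring

/-- The non-singular vectors not orthogonal to a given one generate. -/
theorem Four.span (h : Four Q E) {v : V} (hv : v ∈ E) (hv0 : v ≠ 0) {A : AddSubgroup V}
    (hA : ∀ w ∈ E, Q w ≠ 0 → polar Q v w ≠ 0 → w ∈ A) : ∀ x ∈ E, x ∈ A := by
  have key : ∀ x ∈ E, polar Q v x ≠ 0 → x ∈ A := by
    intro x hx hvx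
    by_cases hqx : Q x = 0
    · -- a hyperbolic pair spanning the same plane
      have hxv : polar Q x v ≠ 0 := by rw [pc]; exact hvx
      obtain ⟨c, hc⟩ : ∃ c, c = polar Q x v := ⟨_, rfl⟩
      rw [← hc] at hxv
      obtain ⟨f, hf⟩ : ∃ f, f = c⁻¹ • (v - (Q v / c) • x) := ⟨_, rfl⟩
      have hfE : f ∈ E := by rw [hf]; exact E.smul_mem _ (E.sub_mem hv (E.smul_mem _ hx))
      have hqf : Q f = 0 := by
        rw [hf, qsmul, qsub, qsmul, psr, hqx, pc Q v x, ← hc]; field_simp; ring
      have hxf : polar Q x f = 1 := by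
        rw [hf, psr, pdr, psr, h.pself0, ← hc]; field_simp; ring
      have hvf : v = c • f + (Q v / c) • x := by
        rw [hf, smul_smul, mul_inv_cancel₀ hxv, one_smul]; abel
      obtain ⟨a, ha, a', ha', hqa, hqa', haa', h1, h2, h3, h4⟩ := h.hyp hx hfE hqx hqf hxf
      have hw : ∀ z ∈ E, Q z ≠ 0 → polar Q x z = 0 → polar Q f z = 0 → x + z ∈ A := by
        intro z hz hqz hxz hfz
        refine hA _ (E.add_mem hx hz) ?_ ?_
        · rw [qadd, hqx, hxz]; simpa using hqz
        · have : polar Q v z = 0 := by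
            rw [hvf, pal, psl, psl, hxz, hfz]; ring
          rw [par, this, add_zero]; exact hvx
      obtain ⟨z, hz, z', hz', hqz, hqz', hqzz, h5, h6, h7, h8⟩ : ∃ z ∈ E, ∃ z' ∈ E, Q z ≠ 0 ∧ Q z' ≠ 0 ∧
          Q (z + z') ≠ 0 ∧ polar Q x z = 0 ∧ polar Q f z = 0 ∧ polar Q x z' = 0 ∧ polar Q f z' = 0 := by
        by_cases hcard : 2 < Nat.card F
        · obtain ⟨r, hr0, hr1⟩ := exists_ne_two hcard (-1 : F)
          refine ⟨a, ha, r • a, E.smul_mem _ ha, hqa, ?_, ?_, h1, h2, by rw [psr, h1, mul_zero],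
            by rw [psr, h2, mul_zero]⟩
          · rw [qsmul]; exact mul_ne_zero (mul_ne_zero hr0 hr0) hqa
          · have : a + r • a = (1 + r) • a := by module
            have h0 : (1 + r) ≠ 0 := fun h => hr1 (by linear_combination h)
            rw [this, qsmul]
            exact mul_ne_zero (mul_ne_zero h0 h0) hqa
        · refine ⟨a, ha, a', ha', hqa, hqa', ?_, h1, h2, h3, h4⟩
          have honly : ∀ r : F, r ≠ 0 → r = 1 := by
            intro r hr
            by_contra hr1
            apply hcard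
            classical
            haveI : Fintype F := Fintype.ofFinite F
            rw [Nat.card_eq_fintype_card, ← Finset.card_univ, Finset.two_lt_card]
            exact ⟨0, Finset.mem_univ _, 1, Finset.mem_univ _, r, Finset.mem_univ _, zero_ne_one,
              Ne.symm hr, Ne.symm hr1⟩
          rw [qadd, honly _ hqa, honly _ hqa', haa']
          intro h0
          have h2 := h.two
          exact one_ne_zero (show (1 : F) = 0 by linear_combination h0 - h2)
      have e : x = (x + z) + (x + z') - (x + (z + z')) := by abel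
      rw [e]
      refine A.sub_mem (A.add_mem (hw z hz hqz h5 h6) (hw z' hz' hqz' h7 h8)) (hw _ (E.add_mem hz hz') hqzz ?_ ?_)
      · rw [par, h5, h7, add_zero]
      · rw [par, h6, h8, add_zero]
    · exact hA x hx hqx hvx
  intro x hx
  by_cases hvx : polar Q v x = 0
  · obtain ⟨y, hy, hvy⟩ := exists_pair_one h.nd hv hv0
    have e : x = (x + y) - y := by abel
    rw [e]
    refine A.sub_mem (key _ (E.add_mem hx hy) ?_) (key _ hy ?_)
    · rw [par, hvx, hvy, zero_add]; exact one_ne_zero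
    · rw [hvy]; exact one_ne_zero
  · exact key x hx hvx

/-- a vector not orthogonal to `v` with prescribed norm -/
theorem Four.exists_q_pair (h : Four Q E) {v : V} (hv : v ∈ E) (hv0 : v ≠ 0) (ν : F) :
    ∃ y ∈ E, polar Q v y = 1 ∧ Q y = ν := by
  have h4 := h.dim
  obtain ⟨y, hy, hvy⟩ := exists_pair_one h.nd hv hv0
  obtain ⟨E₀, hmem, hnd, hdim⟩ := compl_pair h.nd hv hy (h.pself0 v) (h.pself0 y) hvy
  obtain ⟨z, hz, hqz⟩ := sub_q_eq hnd (by omega) (ν - Q y)
  have hz' := (hmem z).1 hz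
  refine ⟨y + z, E.add_mem hy hz'.1, ?_, ?_⟩
  · rw [par, hvy, hz'.2.1, add_zero]
  · rw [qadd, hqz, hz'.2.2]; ring

theorem li_of_polar (h2 : (2 : F) = 0) {a a' : V} (haa : polar Q a a' ≠ 0) :
    ∀ p r : F, p • a + r • a' = 0 → p = 0 ∧ r = 0 := by
  have h0 : ∀ x : V, polar Q x x = 0 := fun x => by rw [pself, h2, zero_mul]
  intro p r h
  have h3 : polar Q (p • a + r • a') a' = 0 := by rw [h, polar_zero_left]
  have h4 : polar Q (p • a + r • a') a = 0 := by rw [h, polar_zero_left]
  rw [pal, psl, psl, h0, mul_zero, add_zero] at h3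
  rw [pal, psl, psl, h0, mul_zero, zero_add, pc Q a' a] at h4
  exact ⟨(mul_eq_zero.1 h3).resolve_right haa, (mul_eq_zero.1 h4).resolve_right haa⟩

theorem nd_of_polar (h2 : (2 : F) = 0) {a a' : V} (haa : polar Q a a' ≠ 0) :
    ∀ x ∈ Submodule.span F {a, a'}, (∀ y ∈ Submodule.span F {a, a'}, polar Q x y = 0) → x = 0 := by
  have h0 : ∀ x : V, polar Q x x = 0 := fun x => by rw [pself, h2, zero_mul]
  intro x hx h
  obtain ⟨p, r, rfl⟩ := Submodule.mem_span_pair.1 hx
  have h3 := h a' (Submodule.subset_span (by simp))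
  have h4 := h a (Submodule.subset_span (by simp))
  rw [pal, psl, psl, h0, mul_zero, add_zero] at h3
  rw [pal, psl, psl, h0, mul_zero, zero_add, pc Q a' a] at h4
  rw [(mul_eq_zero.1 h3).resolve_right haa, (mul_eq_zero.1 h4).resolve_right haa]
  module

end

end Cfsg.Agent.ODec
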