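import Cfsg.Agent.ODec.Four

/-!
Frames of spaces of dimension at least four in characteristic two.
-/

set_option autoImplicit false
set_option linter.unusedSectionVars false
set_option linter.unusedVariables false

namespace Cfsg.Agent.ODec

open QuadraticMap Cfsg.Agent.Orth Cfsg.Agent.OMax

variable {F V : Type*} [Field F] [AddCommGroup V] [Module F V]

section

variable [Finite F] [FiniteDimensional F V] {Q : QuadraticForm F V} {M : Subgroup (OGrp Q)}
  {t k : ℕ} {D : Fin t → Submodule F V} {u : V}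

theorem DC.hS (C : DC Q M k D) {i : Fin t} {e s : V} (he : e ∈ D i) (hs : s ∈ D i) (hqe : Q e = 0)
    (hes : polar Q e s = 0) : HasE M e s := by
  refine ⟨hqe, hes, C.hH _ (eich_mem_comm C.hQ (by have := C.hn; omega) hqe hes)
    (Pres.of_id fun j x hx => ?_)⟩
  by_cases hij : j = i
  · subst hij
    rw [eich_apply]
    exact (D j).sub_mem ((D j).sub_mem ((D j).add_mem hx ((D j).smul_mem _ he))
      ((D j).smul_mem _ hs)) ((D j).smul_mem _ he)
  · rw [eich_fix hqe hes (C.hD.orth j i hij x hx e he) (C.hD.orth j i hij x hx s hs)]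
    exact hx

/-- **Case II** in characteristic two. -/
theorem DC.four_two (C : DC Q M k D) (hG : ∀ i, Four Q (D i)) (hP : HP M D) (ht : 0 < t) :
    ∀ m ∈ M, Pres D m := by
  intro m hm
  by_contra hmp
  obtain ⟨i, -⟩ : ∃ i : Fin t, True := ⟨⟨0, ht⟩, trivial⟩
  obtain ⟨v, hv, hqv⟩ := C.exists_q i 1
  have hqv0 : Q v ≠ 0 := by rw [hqv]; exact one_ne_zero
  obtain ⟨c, hc, hsum⟩ := C.hD.sup (((m⁻¹ : OGrp Q) : V ≃ₗ[F] V) v)
  obtain ⟨a, ha, a', ha', hqa, hqa', haa', h1, h2⟩ := (hG i).ns (hc i)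
  have e1 : polar Q v ((m : V ≃ₗ[F] V) a) = 0 := by
    rw [polar_apply_comm, hsum, C.hD.polar_comp hc i ha, h1]
  have e2 : polar Q v ((m : V ≃ₗ[F] V) a') = 0 := by
    rw [polar_apply_comm, hsum, C.hD.polar_comp hc i ha', h2]
  have hg : m * (refl Q a hqa * refl Q a' hqa') * m⁻¹ ∈ M :=
    M.mul_mem (M.mul_mem hm (C.refl_pair ha ha' hqa hqa' (isSquare_of_two_eq_zero (hG i).two _)))
      (M.inv_mem hm)
  have hp : Pres D (m * (refl Q a hqa * refl Q a' hqa') * m⁻¹) := by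
    refine hP i i v hv hqv0 _ hg ?_
    rw [conj_fix m hqa hqa' e1 e2]; exact hv
  rw [conj_pair] at hp
  have hmm : polar Q ((m : V ≃ₗ[F] V) a) ((m : V ≃ₗ[F] V) a') ≠ 0 := by
    rw [OGrp_polar, haa']; exact one_ne_zero
  obtain ⟨l, hl⟩ := rot_pres C.hQ C.hD C.hk _ _ (li_of_polar (hG i).two hmm) hmm
    (nd_of_polar (hG i).two hmm) hp
  exact hmp (hP i l a ha hqa m hm hl)

theorem DC.four_out (C : DC Q M k D) (hG : ∀ i, Four Q (D i)) {j₀ : Fin t} (hu : u ∈ D j₀) (hqu : Q u ≠ 0)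
    (hinv : Inv M u) (hM : ∃ g ∈ M, ¬ Pres D g) : ∃ b, Cl M u b ∧ ∀ i, b ∉ D i := by
  by_contra hcon
  push Not at hcon
  obtain ⟨g, hg, hgp⟩ := hM
  apply hgp
  refine Pres.of_forall C.hD (by have := C.hk; omega) fun i => ?_
  have hcl : ∀ w ∈ D i, Q w ≠ 0 → ∃ l, (g : V ≃ₗ[F] V) w ∈ D l := by
    intro w hw hqw
    exact hcon _ (hinv g hg w (C.mem_Cl hw hu hqw hqu (isSquare_of_two_eq_zero (hG i).two _)))
  obtain ⟨v, hv, hqv⟩ := C.exists_q i 1
  have hqv0 : Q v ≠ 0 := by rw [hqv]; exact one_ne_zero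
  obtain ⟨l, hl⟩ := hcl v hv hqv0
  refine ⟨l, fun x hx => ?_⟩
  refine (hG i).span (A := ((D l).comap ((g : V ≃ₗ[F] V) : V →ₗ[F] V)).toAddSubgroup) hv (Four.ne_zero hqv0)
    (fun w hw hqw hvw => ?_) x hx
  obtain ⟨l', hl'⟩ := hcl w hw hqw
  have hll : l = l' := by
    by_contra h
    have := C.hD.orth l l' h _ hl _ hl'
    rw [OGrp_polar] at this
    exact hvw this
  subst hll
  exact hl'

/-- **Case I** in characteristic two. -/
theorem DC.four_one (C : DC Q M k D) (hG : ∀ i, Four Q (D i)) (ht : 2 ≤ t) {j₀ : Fin t} (hu : u ∈ D j₀)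
    (hqu : Q u ≠ 0) (hinv : Inv M u) (hM : ∃ g ∈ M, ¬ Pres D g) : commutator (OGrp Q) ≤ M := by
  classical
  obtain ⟨b, hb, hbout⟩ := C.four_out hG hu hqu hinv hM
  obtain ⟨c, hc, hsum⟩ := C.hD.sup b
  obtain ⟨i, hqi⟩ : ∃ i, Q (c i) ≠ 0 := by
    by_contra hcon
    push Not at hcon
    apply hb.q
    rw [hsum, C.hD.q_comp hc]
    exact Finset.sum_eq_zero fun i _ => hcon i
  obtain ⟨j, hji, hj⟩ : ∃ j, j ≠ i ∧ c j ≠ 0 := by
    by_contra hcon
    push Not at hcon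
    apply hbout i
    rw [hsum, Finset.sum_eq_single i (fun l _ hl => hcon l hl)
      (fun h => absurd (Finset.mem_univ i) h)]
    exact hc i
  have hpb : ∀ l, ∀ d ∈ D l, polar Q b d = polar Q (c l) d := fun l d hd => by
    rw [hsum, C.hD.polar_comp hc l hd]
  -- a singular vector of the member
  obtain ⟨e, he, he0, hqe, hec⟩ := (hG i).sing_perp (hc i) hqi
  have hbe : polar Q b e = 0 := by rw [hpb i e he, pc]; exact hec
  obtain ⟨s, hs, hse, hsc⟩ := sub_ortho_not (C.hD.nondeg i) (Submodule.span F {e}) (hc i) (by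
    intro h
    obtain ⟨r, hr⟩ := Submodule.mem_span_singleton.1 h
    apply hqi
    rw [← hr, qsmul, hqe, mul_zero])
  have hse' : polar Q s e = 0 := hse e (Submodule.mem_span_singleton_self e) he
  have hes : polar Q e (-s) = 0 := by rw [polar_neg_right, pc, hse', neg_zero]
  have hE1 : HasE M e (-s) := C.hS he ((D i).neg_mem hs) hqe hes
  have hbz : Cl M u (b - e) := by
    have h1 := hinv _ hE1.2.2 b hb
    have h2 : (eich Q e (-s) hE1.1 hE1.2.1 : V ≃ₗ[F] V) b = b - e := by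
      rw [eich_apply, hbe, polar_neg_right, hpb i s hs, pc, hsc]; module
    rwa [h2] at h1
  have hE2 := hb.hasE hbz hqe (by rw [qsub, hqe, hbe]; ring)
  have hE3 : HasE M e ((Q b)⁻¹ • c i) := C.hS he ((D i).smul_mem _ (hc i)) hqe (by rw [psr, hec, mul_zero])
  have hE4 := hE2.sub hE3
  obtain ⟨y₀, hy₀⟩ : ∃ y₀, y₀ = (Q b)⁻¹ • b - (Q b)⁻¹ • c i := ⟨_, rfl⟩
  rw [← hy₀] at hE4
  have hy₀p : ∀ l, l ≠ i → ∀ d ∈ D l, polar Q y₀ d = (Q b)⁻¹ * polar Q (c l) d := by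
    intro l hl d hd
    rw [hy₀, pdl, psl, psl, hpb l d hd, C.hD.orth i l (Ne.symm hl) _ (hc i) _ hd]; ring
  have hy₀i : ∀ d ∈ D i, polar Q y₀ d = 0 := by
    intro d hd
    rw [hy₀, pdl, psl, psl, hpb i d hd]; ring
  -- the additive group
  let A : AddSubgroup V := EA M hqe ⊓ (perp Q (D i)).toAddSubgroup
  have hA : ∀ y, y ∈ A ↔ HasE M e y ∧ ∀ d ∈ D i, polar Q d y = 0 := fun y => Iff.rfl
  obtain ⟨w', hw', hew', hqw'⟩ := sub_nonsing_perp (C.hD.nondeg i) (by have := (hG i).dim; omega) he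
  have hstep : ∀ l, l ≠ i → ∀ w ∈ D l, ∀ hw : Q w ≠ 0, ∀ y ∈ A, ((Q w)⁻¹ * polar Q y w) • w ∈ A := by
    intro l hl w hw hqw y hy
    have hy' := (hA y).1 hy
    have hM := C.refl_pair hw hw' hqw hqw' (isSquare_of_two_eq_zero (hG i).two _)
    have h1 := hy'.1.conj hM
    rw [coe_mul_apply, coe_mul_apply, refl_apply_of_ortho hqw' hew',
      refl_apply_of_ortho hqw (C.hD.orth i l (Ne.symm hl) _ he _ hw),
      refl_apply_of_ortho hqw' (by rw [pc]; exact hy'.2 _ hw'), refl_apply] at h1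
    have h2 := hy'.1.sub h1
    rw [sub_sub_cancel] at h2
    refine (hA _).2 ⟨h2, fun d hd => ?_⟩
    rw [psr, C.hD.orth i l (Ne.symm hl) _ hd _ hw, mul_zero]
  -- a non-singular vector of `D j` in `A`
  have hy₀A : y₀ ∈ A := (hA _).2 ⟨hE4, fun d hd => by rw [pc]; exact hy₀i d hd⟩
  obtain ⟨w, hw, hqw, hcw⟩ : ∃ w ∈ D j, Q w ≠ 0 ∧ polar Q (c j) w ≠ 0 := by
    by_contra hcon
    push Not at hcon
    obtain ⟨v, hv, hqv⟩ := C.exists_q j 1
    have hqv0 : Q v ≠ 0 := by rw [hqv]; exact one_ne_zero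
    apply hj
    refine eq_zero_of_ortho C.hD (hc j) fun y hy => ?_
    have h1 := (hG j).span (A := (perp Q (Submodule.span F {c j})).toAddSubgroup) hv (Four.ne_zero hqv0)
      (fun w hw hqw _ => by
        rw [Submodule.mem_toAddSubgroup, mem_perp]
        intro z hz
        obtain ⟨r, rfl⟩ := Submodule.mem_span_singleton.1 hz
        rw [psl, hcon w hw hqw, mul_zero]) y hy
    rw [Submodule.mem_toAddSubgroup, mem_perp] at h1
    exact h1 _ (Submodule.mem_span_singleton_self _)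
  have hw₀ := hstep j hji w hw hqw y₀ hy₀A
  rw [hy₀p j hji w hw] at hw₀
  obtain ⟨r₀, hr₀⟩ : ∃ r₀, r₀ = (Q w)⁻¹ * ((Q b)⁻¹ * polar Q (c j) w) := ⟨_, rfl⟩
  rw [← hr₀] at hw₀
  have hr₀0 : r₀ ≠ 0 := by
    rw [hr₀]; exact mul_ne_zero (inv_ne_zero hqw) (mul_ne_zero (inv_ne_zero hb.q) hcw)
  have hjA : ∀ y ∈ D j, y ∈ A := by
    refine (hG j).span (v := r₀ • w) ((D j).smul_mem _ hw) (smul_ne_zero hr₀0 (Four.ne_zero hqw)) ?_
    intro v hv hqv hwv
    have h1 := hstep j hji v hv hqv _ hw₀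
    obtain ⟨δ, hδ⟩ : ∃ δ, δ = (Q v)⁻¹ * polar Q (r₀ • w) v := ⟨_, rfl⟩
    rw [← hδ] at h1
    have hδ0 : δ ≠ 0 := by rw [hδ]; exact mul_ne_zero (inv_ne_zero hqv) hwv
    obtain ⟨v', hv', hvv', hqv'⟩ := (hG j).exists_q_pair hv (Four.ne_zero hqv) (δ / Q v)
    have hqv'0 : Q v' ≠ 0 := by rw [hqv']; exact div_ne_zero hδ0 hqv
    have h2 := hstep j hji v' hv' hqv'0 _ h1
    have h3 := hstep j hji v hv hqv _ h2
    have e1 : (Q v)⁻¹ * polar Q (((Q v')⁻¹ * polar Q (δ • v) v') • v') v = 1 := by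
      rw [psl, psl, hvv', pc Q v' v, hvv', hqv']; field_simp
    rw [e1, one_smul] at h3
    exact h3
  have hlE : ∀ l, l ≠ i → ∀ y ∈ D l, HasE M e y := by
    intro l hl y hy
    by_cases hlj : j = l
    · subst hlj; exact ((hA y).1 (hjA y hy)).1
    · obtain ⟨g, hg, hfix, hjl⟩ := C.swap hlj
      obtain ⟨x, hx, rfl⟩ := hjl y hy
      have h1 := (((hA x).1 (hjA x hx)).1).conj hg
      rwa [hfix i (Ne.symm hji) (Ne.symm hl) e he] at h1
  have hfull : ∀ y, polar Q e y = 0 → HasE M e y := by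
    intro y hy
    obtain ⟨d, hd, rfl⟩ := C.hD.sup y
    have h1 : (∑ l, d l) ∈ EA M hqe := by
      refine (EA M hqe).sum_mem fun l _ => ?_
      rw [mem_EA]
      by_cases hl : l = i
      · subst hl
        refine C.hS he (hd l) hqe ?_
        rw [pc, ← C.hD.polar_comp hd l he, pc]; exact hy
      · exact hlE l hl _ (hd l)
    exact h1
  -- the opposite point
  obtain ⟨f, hf, hqf, hef⟩ := sub_partner (C.hD.nondeg i) he hqe he0
  have hqef : Q (e - f) = -1 := by rw [qsub, hqe, hqf, hef]; ring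
  have hqef0 : Q (e - f) ≠ 0 := by rw [hqef]; exact neg_ne_zero.2 one_ne_zero
  have hM2 := C.refl_pair ((D i).sub_mem he hf) hw hqef0 hqw (isSquare_of_two_eq_zero (hG i).two _)
  obtain ⟨g, hgdef⟩ : ∃ g, g = refl Q (e - f) hqef0 * refl Q w hqw := ⟨_, rfl⟩
  rw [← hgdef] at hM2
  have hge : (g : V ≃ₗ[F] V) e = f := by
    rw [hgdef, coe_mul_apply, refl_apply_of_ortho hqw (C.hD.orth i j (Ne.symm hji) _ he _ hw), refl_apply,
      hqef, pdr, pself, hqe, hef, inv_neg, inv_one]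
    module
  refine comm_le_of_two C.hQ C.hn hqe hqf (by rw [hef]; exact one_ne_zero) hfull fun y hy => ?_
  have h1 := (hfull (((g⁻¹ : OGrp Q) : V ≃ₗ[F] V) y) (by
    rw [← OGrp_polar g, hge, coe_apply_inv_self]; exact hy)).conj hM2
  rwa [hge, coe_apply_inv_self] at h1

/-- Overgroups of the stabiliser, characteristic two and members of dimension at least four. -/
theorem DC.four_max (C : DC Q M k D) (hG : ∀ i, Four Q (D i)) (ht : 2 ≤ t) (hM : ∃ g ∈ M, ¬ Pres D g) :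
    commutator (OGrp Q) ≤ M := by
  by_contra hcon
  have hP : HP M D := fun i j u hu hqu m hm hmu =>
    C.pres_of_mem (fun M' C' j u hu hqu hinv hM' => C'.four_one hG ht hu hqu hinv hM') hcon hu hqu hm hmu
  obtain ⟨g, hg, hgp⟩ := hM
  exact hgp (C.four_two hG hP (by omega) g hg)

/-- Overgroups of the stabiliser, members of dimension two. -/
theorem DC.two_max (C : DC Q M 2 D) (hG : ∀ i, Good Q (D i)) (ht : 7 ≤ t) (hM : ∃ g ∈ M, ¬ Pres D g) :
    commutator (OGrp Q) ≤ M := by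
  by_contra hcon
  have hP : HP M D := fun i j u hu hqu m hm hmu =>
    C.pres_of_mem (fun M' C' j u hu hqu hinv hM' => C'.case_one hG ht hu hqu hinv hM') hcon hu hqu hm hmu
  obtain ⟨g, hg, hgp⟩ := hM
  exact hgp (C.case_two hG hP ht g hg)

end

end Cfsg.Agent.ODec
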