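import Cfsg.Agent.ODec.Swap

/-!
Planes: counting values of `B(b,w)² / (Q(b) Q(w))`.
-/

set_option autoImplicit false
set_option linter.unusedSectionVars false
set_option linter.unusedVariables false

namespace Cfsg.Agent.ODec

open QuadraticMap Cfsg.Agent.Orth Cfsg.Agent.OMax

theorem card_quad_le {F : Type*} [Field F] [Fintype F] [DecidableEq F] {α β γ : F} (hα : α ≠ 0) :
    (Finset.univ.filter fun a : F => α * a * a + β * a + γ = 0).card ≤ 2 := by
  by_cases h : ∃ a₁ : F, α * a₁ * a₁ + β * a₁ + γ = 0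
  · obtain ⟨a₁, h1⟩ := h
    have hsub : (Finset.univ.filter fun a : F => α * a * a + β * a + γ = 0) ⊆ {a₁, -β / α - a₁} := by
      intro a ha
      rw [Finset.mem_filter] at ha
      have h2 : (a - a₁) * (α * (a + a₁) + β) = 0 := by linear_combination ha.2 - h1
      rw [Finset.mem_insert, Finset.mem_singleton]
      rcases mul_eq_zero.1 h2 with h3 | h3
      · exact Or.inl (sub_eq_zero.1 h3)
      · right
        field_simp
        linear_combination h3
    exact (Finset.card_le_card hsub).trans Finset.card_le_two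
  · push Not at h
    rw [Finset.filter_false_of_mem (fun a _ => h a), Finset.card_empty]
    exact Nat.zero_le _

variable {F V : Type*} [Field F] [AddCommGroup V] [Module F V]

/-- The planes for which the stabiliser of a frame is maximal. -/
structure Good (Q : QuadraticForm F V) (P : Submodule F V) : Prop where
  dim : Module.finrank F P = 2
  nd : P ⊓ perp Q P = ⊥
  good : 7 ≤ Nat.card F ∨ ((∀ x ∈ P, Q x = 0 → x = 0) ∧ Nat.card F ≠ 3)

section

variable [Finite F] [FiniteDimensional F V] {Q : QuadraticForm F V} {P : Submodule F V}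

theorem plane_exists_second (hdim : Module.finrank F P = 2) {b : V} (hb : b ∈ P) (hb0 : b ≠ 0) :
    ∃ y ∈ P, (∀ p r : F, p • b + r • y = 0 → p = 0 ∧ r = 0) ∧ (∀ d ∈ P, ∃ p r : F, d = p • b + r • y) := by
  obtain ⟨y, hy, hyb⟩ : ∃ y ∈ P, y ∉ Submodule.span F {b} := by
    by_contra hcon
    push Not at hcon
    have h1 := Submodule.finrank_mono (show P ≤ Submodule.span F {b} from hcon)
    rw [hdim, finrank_span_singleton hb0] at h1
    omega
  have hli : LinearIndependent F ![b, y] := by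
    rw [LinearIndependent.pair_iff]
    intro s t hst
    have ht : t = 0 := by
      by_contra ht
      apply hyb
      rw [Submodule.mem_span_singleton]
      refine ⟨-(t⁻¹ * s), ?_⟩
      have : t • y = -(s • b) := eq_neg_of_add_eq_zero_right hst
      calc (-(t⁻¹ * s)) • b = t⁻¹ • (-(s • b)) := by module
        _ = t⁻¹ • (t • y) := by rw [this]
        _ = y := by rw [smul_smul, inv_mul_cancel₀ ht, one_smul]
    rw [ht, zero_smul, add_zero, smul_eq_zero] at hst
    exact ⟨hst.resolve_right hb0, ht⟩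
  have h1 := finrank_span_eq_card hli
  have h3 : Set.range ![b, y] = {b, y} := by
    simp [Matrix.range_cons, Matrix.range_empty, Set.pair_comm]
  rw [h3, Fintype.card_fin] at h1
  have hle : Submodule.span F {b, y} ≤ P := by
    rw [Submodule.span_le]
    rintro x (rfl | rfl)
    · exact hb
    · exact hy
  have heq := Submodule.eq_of_le_of_finrank_eq hle (by rw [h1, hdim])
  refine ⟨y, hy, fun p r h => (LinearIndependent.pair_iff.1 hli) p r h, fun d hd => ?_⟩
  rw [← heq] at hd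
  obtain ⟨p, r, h⟩ := Submodule.mem_span_pair.1 hd
  exact ⟨p, r, h.symm⟩

theorem plane_span_of_li (hdim : Module.finrank F P = 2) {b y : V} (hb : b ∈ P) (hy : y ∈ P)
    (hli : ∀ p r : F, p • b + r • y = 0 → p = 0 ∧ r = 0) : ∀ d ∈ P, ∃ p r : F, d = p • b + r • y := by
  have hli : LinearIndependent F ![b, y] := LinearIndependent.pair_iff.2 hli
  have h1 := finrank_span_eq_card hli
  have h3 : Set.range ![b, y] = {b, y} := by
    simp [Matrix.range_cons, Matrix.range_empty, Set.pair_comm]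
  rw [h3, Fintype.card_fin] at h1
  have hle : Submodule.span F {b, y} ≤ P := by
    rw [Submodule.span_le]
    rintro x (rfl | rfl)
    · exact hb
    · exact hy
  have heq := Submodule.eq_of_le_of_finrank_eq hle (by rw [h1, hdim])
  intro d hd
  rw [← heq] at hd
  obtain ⟨p, r, h⟩ := Submodule.mem_span_pair.1 hd
  exact ⟨p, r, h.symm⟩

theorem plane_disc (hnd : P ⊓ perp Q P = ⊥) {b y : V} (hb : b ∈ P) (hy : y ∈ P)
    (hli : ∀ p r : F, p • b + r • y = 0 → p = 0 ∧ r = 0) (hsp : ∀ d ∈ P, ∃ p r : F, d = p • b + r • y) :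
    polar Q b y * polar Q b y ≠ 4 * Q b * Q y := by
  intro h
  have key : ∀ x ∈ P, polar Q x b = 0 → polar Q x y = 0 → x = 0 := by
    intro x hx h1 h2
    have : x ∈ P ⊓ perp Q P := ⟨hx, fun d hd => by
      obtain ⟨p, r, rfl⟩ := hsp d hd
      change polar Q _ x = 0
      rw [pc, par, psr, psr, h1, h2]; ring⟩
    rw [hnd] at this; exact this
  have h3 := key (polar Q b y • b + (-(2 * Q b)) • y) (P.add_mem (P.smul_mem _ hb) (P.smul_mem _ hy))
    (by rw [pal, psl, psl, pself, pc Q y b]; ring)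
    (by rw [pal, psl, psl, pself]; linear_combination h)
  obtain ⟨h4, h5⟩ := hli _ _ h3
  have h6 := key b hb (by rw [pself]; linear_combination -h5) h4
  have h7 := hli 1 0 (by rw [h6]; simp)
  exact one_ne_zero h7.1

/-- The count. -/
theorem plane_count (hdim : Module.finrank F P = 2) (hnd : P ⊓ perp Q P = ⊥) {b : V} (hb : b ∈ P)
    (hq : Q b ≠ 0) : ∃ T : Finset F,
      (∀ ρ ∈ T, ρ ≠ 4 ∧ ∃ w ∈ P, Q w ≠ 0 ∧ ρ * (Q b * Q w) = polar Q b w * polar Q b w) ∧
      Nat.card F ≤ 2 * T.card + 2 ∧ ((∀ x ∈ P, Q x = 0 → x = 0) → Nat.card F ≤ 2 * T.card) := by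
  classical
  cases nonempty_fintype F
  have hb0 : b ≠ 0 := by rintro rfl; exact hq (QuadraticMap.map_zero Q)
  obtain ⟨y, hy, hli, hsp⟩ := plane_exists_second hdim hb hb0
  have hdisc := plane_disc hnd hb hy hli hsp
  have hqa : ∀ a : F, Q (y + a • b) = Q b * a * a + polar Q b y * a + Q y := by
    intro a; rw [qadd, qsmul, psr, pc Q y b]; ring
  have hsa : ∀ a : F, polar Q b (y + a • b) = polar Q b y + 2 * a * Q b := by
    intro a; rw [par, psr, pself]; ring
  set S : Finset F := Finset.univ.filter fun a => Q (y + a • b) ≠ 0 with hS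
  set f : F → F := fun a => polar Q b (y + a • b) * polar Q b (y + a • b) / (Q b * Q (y + a • b)) with hf
  have hfa : ∀ a ∈ S, f a * (Q b * Q (y + a • b)) = polar Q b (y + a • b) * polar Q b (y + a • b) := by
    intro a ha
    rw [hS, Finset.mem_filter] at ha
    exact div_mul_cancel₀ _ (mul_ne_zero hq ha.2)
  have hf4 : ∀ a ∈ S, f a ≠ 4 := by
    intro a ha h4
    have h1 := hfa a ha
    rw [h4, hsa, hqa] at h1
    apply hdisc
    linear_combination -h1
  have hSc : Nat.card F ≤ S.card + 2 := by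
    rw [Nat.card_eq_fintype_card]
    have h1 := Finset.card_filter_add_card_filter_not (s := (Finset.univ : Finset F))
      (fun a => Q (y + a • b) ≠ 0)
    have h2 : (Finset.univ.filter fun a : F => ¬ Q (y + a • b) ≠ 0).card ≤ 2 := by
      refine le_trans (Finset.card_le_card ?_) (card_quad_le (α := Q b) (β := polar Q b y) (γ := Q y) hq)
      intro a ha
      rw [Finset.mem_filter] at ha ⊢
      refine ⟨Finset.mem_univ _, ?_⟩
      rw [← hqa]; simpa using ha.2
    rw [Finset.card_univ, ← hS] at h1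
    omega
  have hSan : (∀ x ∈ P, Q x = 0 → x = 0) → Nat.card F ≤ S.card := by
    intro han
    rw [Nat.card_eq_fintype_card, ← Finset.card_univ]
    refine Finset.card_le_card fun a _ => ?_
    rw [hS, Finset.mem_filter]
    refine ⟨Finset.mem_univ _, fun h => ?_⟩
    have h1 := han _ (P.add_mem hy (P.smul_mem _ hb)) h
    have h2 := hli a 1 (by rw [one_smul, add_comm]; exact h1)
    exact one_ne_zero h2.2
  have hfib : S.card ≤ 2 * (S.image f).card := by
    refine Finset.card_le_mul_card_image _ _ ?_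
    intro ρ hρ
    obtain ⟨a₀, ha₀, rfl⟩ := Finset.mem_image.1 hρ
    have h4 := hf4 a₀ ha₀
    have hα : Q b * Q b * (4 - f a₀) ≠ 0 := mul_ne_zero (mul_ne_zero hq hq) (sub_ne_zero.2 h4.symm)
    refine le_trans (Finset.card_le_card ?_) (card_quad_le (α := Q b * Q b * (4 - f a₀))
      (β := polar Q b y * Q b * (4 - f a₀)) (γ := polar Q b y * polar Q b y - f a₀ * Q b * Q y) hα)
    intro a ha
    rw [Finset.mem_filter] at ha ⊢
    refine ⟨Finset.mem_univ _, ?_⟩
    have h1 := hfa a ha.1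
    rw [ha.2, hsa, hqa] at h1
    linear_combination -h1
  refine ⟨S.image f, ?_, by omega, fun han => by have := hSan han; omega⟩
  intro ρ hρ
  obtain ⟨a, ha, rfl⟩ := Finset.mem_image.1 hρ
  refine ⟨hf4 a ha, y + a • b, P.add_mem hy (P.smul_mem _ hb), ?_, hfa a ha⟩
  rw [hS, Finset.mem_filter] at ha
  exact ha.2

/-- Directions in general position. -/
theorem Good.exists_dir (hP : Good Q P) {b : V} (hb : b ∈ P) (hq : Q b ≠ 0) :
    ∃ w ∈ P, Q w ≠ 0 ∧ polar Q b w ≠ 0 ∧ 2 * Q b * Q w ≠ polar Q b w * polar Q b w ∧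
      polar Q b w * polar Q b w ≠ 4 * (Q b * Q w) := by
  classical
  cases nonempty_fintype F
  obtain ⟨T, hT, hc1, hc2⟩ := plane_count hP.dim hP.nd hb hq
  have hb0 : b ≠ 0 := by rintro rfl; exact hq (QuadraticMap.map_zero Q)
  have hFc : 2 ≤ Nat.card F := by rw [Nat.card_eq_fintype_card]; exact Fintype.one_lt_card
  by_cases h2 : (2 : F) = 0
  · -- characteristic two
    have hT0 : T.Nonempty := by
      rw [← Finset.card_pos]
      rcases hP.good with h | ⟨h, -⟩
      · omega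
      · have := hc2 h; omega
    obtain ⟨ρ, hρ⟩ := hT0
    obtain ⟨h4, w, hw, hqw, hρw⟩ := hT ρ hρ
    have h40 : (4 : F) = 0 := by
      have : (4 : F) = 2 * 2 := by norm_num
      rw [this, h2, zero_mul]
    have hbw : polar Q b w ≠ 0 := by
      intro h
      rw [h, zero_mul] at hρw
      have := (mul_eq_zero.1 hρw).resolve_right (mul_ne_zero hq hqw)
      exact h4 (by rw [this, h40])
    refine ⟨w, hw, hqw, hbw, ?_, ?_⟩
    · rw [h2, zero_mul, zero_mul]; exact (mul_ne_zero hbw hbw).symm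
    · rw [h40, zero_mul]; exact mul_ne_zero hbw hbw
  · -- odd characteristic: three values suffice
    have hTc : 3 ≤ T.card := by
      rcases hP.good with h | ⟨h, h3⟩
      · omega
      · have h5 := hc2 h
        have hodd : Nat.card F ≠ 2 ∧ Nat.card F ≠ 4 := by
          constructor
          · intro h6
            apply h2
            have := Nat.cast_card_eq_zero F
            rw [← Nat.card_eq_fintype_card, h6] at this
            exact_mod_cast this
          · intro h6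
            apply h2
            have := Nat.cast_card_eq_zero F
            rw [← Nat.card_eq_fintype_card, h6] at this
            have h7 : (2 : F) * 2 = 0 := by
              have h8 : ((4 : ℕ) : F) = 2 * 2 := by norm_num
              rw [← h8]; exact this
            exact mul_self_eq_zero.1 h7
        omega
    obtain ⟨ρ, hρ, hρ2⟩ : ∃ ρ ∈ T, ρ ∉ ({0, 2} : Finset F) := by
      by_contra hcon
      push Not at hcon
      have h1 : T ⊆ {0, 2} := hcon
      have h2 := (Finset.card_le_card h1).trans Finset.card_le_two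
      omega
    obtain ⟨h4, w, hw, hqw, hρw⟩ := hT ρ hρ
    rw [Finset.mem_insert, Finset.mem_singleton, not_or] at hρ2
    refine ⟨w, hw, hqw, ?_, ?_, ?_⟩
    · intro h
      rw [h, zero_mul] at hρw
      exact hρ2.1 ((mul_eq_zero.1 hρw).resolve_right (mul_ne_zero hq hqw))
    · intro h
      apply hρ2.2
      have h5 : (ρ - 2) * (Q b * Q w) = 0 := by linear_combination hρw - h
      have := (mul_eq_zero.1 h5).resolve_right (mul_ne_zero hq hqw)
      linear_combination this
    · intro h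
      apply h4
      have h5 : (ρ - 4) * (Q b * Q w) = 0 := by linear_combination hρw + h
      have := (mul_eq_zero.1 h5).resolve_right (mul_ne_zero hq hqw)
      linear_combination this

theorem Good.exists_rot (hP : Good Q P) {b : V} (hb : b ∈ P) (hq : Q b ≠ 0) :
    ∃ x ∈ P, Q x = Q b ∧ polar Q b x ≠ 0 ∧ (∀ p r : F, p • b + r • x = 0 → p = 0 ∧ r = 0) ∧
      ∃ w ∈ P, ∃ hw : Q w ≠ 0, (refl Q w hw : V ≃ₗ[F] V) b = x := by
  obtain ⟨w, hw, hqw, h1, h2, h3⟩ := hP.exists_dir hb hq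
  refine ⟨(refl Q w hqw : V ≃ₗ[F] V) b, ?_, OGrp_q _ _, ?_, ?_, w, hw, hqw, rfl⟩
  · rw [refl_apply]; exact P.sub_mem hb (P.smul_mem _ hw)
  · rw [refl_apply, pdr, psr, pself]
    intro h
    apply h2
    field_simp at h
    linear_combination h
  · intro p r h
    rw [refl_apply] at h
    set c := (Q w)⁻¹ * polar Q b w with hc
    have hc0 : c ≠ 0 := mul_ne_zero (inv_ne_zero hqw) h1
    -- (p + r) b - r c w = 0
    have h4 : (p + r) • b - (r * c) • w = 0 := by rw [← h]; module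
    have h5 : polar Q b ((p + r) • b - (r * c) • w) = 0 := by rw [h4, polar_zero_right]
    have h6 : polar Q w ((p + r) • b - (r * c) • w) = 0 := by rw [h4, polar_zero_right]
    rw [pdr, psr, psr, pself] at h5 h6
    rw [pc Q w b] at h6
    -- (p+r) 2 Q b = r c B, (p+r) B = r c 2 Q w
    have h7 : (r * c) * (4 * (Q b * Q w) - polar Q b w * polar Q b w) = 0 := by
      linear_combination (polar Q b w) * h5 - 2 * Q b * h6
    have h8 : r * c = 0 := (mul_eq_zero.1 h7).resolve_right (sub_ne_zero.2 (Ne.symm h3))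
    have hr : r = 0 := (mul_eq_zero.1 h8).resolve_right hc0
    rw [hr] at h4
    have h9 : p • b = 0 := by rw [← h4]; module
    have hb0 : b ≠ 0 := by rintro rfl; exact hq (QuadraticMap.map_zero Q)
    exact ⟨(smul_eq_zero.1 h9).resolve_right hb0, hr⟩

/-- Additive subgroups invariant under the reflections of a good plane. -/
theorem Good.span (hP : Good Q P) {A : AddSubgroup V}
    (hA : ∀ v ∈ P, ∀ hv : Q v ≠ 0, ∀ w ∈ A, w ∈ P → ((Q v)⁻¹ * polar Q w v) • v ∈ A) {w₀ : V} (hw₀ : w₀ ∈ A)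
    (hw₀P : w₀ ∈ P) (hw₀0 : w₀ ≠ 0) : ∀ x ∈ P, x ∈ A := by
  classical
  cases nonempty_fintype F
  -- one line
  have hline : ∀ v ∈ P, Q v ≠ 0 → ∀ c₀ : F, c₀ ≠ 0 → c₀ • v ∈ A → ∀ c : F, c • v ∈ A := by
    intro v hv hqv c₀ hc₀ hc₀A
    -- the ring of multipliers
    let R : Subring F :=
      { carrier := {r | ∀ c : F, c • v ∈ A → (r * c) • v ∈ A}
        mul_mem' := by
          intro r s hr hs c hc
          rw [mul_assoc]; exact hr _ (hs _ hc)
        one_mem' := by intro c hc; rwa [one_mul]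
        add_mem' := by
          intro r s hr hs c hc
          rw [add_mul, add_smul]; exact A.add_mem (hr _ hc) (hs _ hc)
        zero_mem' := by intro c hc; rw [zero_mul, zero_smul]; exact A.zero_mem
        neg_mem' := by
          intro r hr c hc
          rw [neg_mul, neg_smul]; exact A.neg_mem (hr _ hc) }
    obtain ⟨T, hT, hc1, hc2⟩ := plane_count hP.dim hP.nd hv hqv
    have hTR : ∀ ρ ∈ T, ρ ∈ R := by
      intro ρ hρ c hc
      obtain ⟨-, w, hw, hqw, hρw⟩ := hT ρ hρ
      have h1 := hA w hw hqw _ hc (P.smul_mem _ hv)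
      have h2 := hA v hv hqv _ h1 (P.smul_mem _ hw)
      have h3 : ((Q v)⁻¹ * polar Q (((Q w)⁻¹ * polar Q (c • v) w) • w) v) • v = (ρ * c) • v := by
        congr 1
        rw [psl, psl, pc Q w v]
        field_simp
        linear_combination (-c) * hρw
      rwa [h3] at h2
    have h4R : (4 : F) ∈ R := by
      have : (4 : F) = ((4 : ℕ) : F) := by norm_num
      rw [this]; exact natCast_mem R 4
    have hRtop : ∀ r : F, r ∈ R := by
      intro x
      by_contra hx
      have hinj : Function.Injective (fun p : R × R => (p.1 : F) + (p.2 : F) * x) := by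
        rintro ⟨r, s⟩ ⟨r', s'⟩ h
        have h1 : (r : F) + s * x = r' + s' * x := h
        by_cases hss : (s : F) = s'
        · have hr : (r : F) = r' := by rw [hss] at h1; exact add_right_cancel h1
          exact Prod.ext (Subtype.ext hr) (Subtype.ext hss)
        · exfalso
          apply hx
          have h2 : (s : F) - s' ≠ 0 := sub_ne_zero.2 hss
          have h3 : x = ((s : F) - s') ^ (Fintype.card F - 2) * (r' - r) := by
            have h5 := FiniteField.pow_card_sub_one_eq_one _ h2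
            have h6 : Fintype.card F - 1 = (Fintype.card F - 2) + 1 := by
              have : 1 < Fintype.card F := Fintype.one_lt_card
              omega
            rw [h6, pow_succ] at h5
            calc x = 1 * x := (one_mul x).symm
              _ = ((s : F) - s') ^ (Fintype.card F - 2) * ((s - s') * x) := by rw [← h5]; ring
              _ = _ := by congr 1; linear_combination h1
          rw [h3]
          exact R.mul_mem (R.pow_mem (R.sub_mem s.2 s'.2) _) (R.sub_mem r'.2 r.2)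
      have hcard := Nat.card_le_card_of_injective _ hinj
      rw [Nat.card_prod] at hcard
      have hTc : T.card + 1 ≤ Nat.card R := by
        have h1 : (insert (4 : F) T).card = T.card + 1 :=
          Finset.card_insert_of_notMem (fun h => (hT 4 h).1 rfl)
        have hsub : ∀ ρ ∈ insert (4 : F) T, ρ ∈ R := by
          intro ρ hρ
          rcases Finset.mem_insert.1 hρ with rfl | h
          · exact h4R
          · exact hTR ρ h
        have h2 := Nat.card_le_card_of_injective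
          (fun ρ : {ρ // ρ ∈ insert (4 : F) T} => (⟨ρ.1, hsub ρ.1 ρ.2⟩ : R))
          (fun a b h => Subtype.ext (congrArg (fun x : R => (x : F)) h))
        rw [Nat.card_eq_fintype_card, Fintype.card_coe, h1] at h2
        exact h2
      rcases hP.good with h7 | ⟨h7, -⟩
      · nlinarith
      · have h8 := hc2 h7
        nlinarith
    intro c
    have := hRtop (c / c₀) c₀ hc₀A
    rwa [div_mul_cancel₀ _ hc₀] at this
  obtain ⟨b, hb, hqb⟩ := sub_nonsing hP.nd (by rw [hP.dim]; omega)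
  obtain ⟨x, hx, hqx, hbx, hli, -⟩ := hP.exists_rot hb hqb
  have hqx0 : Q x ≠ 0 := by rw [hqx]; exact hqb
  obtain ⟨v, hv, hqv, hwv⟩ : ∃ v ∈ P, Q v ≠ 0 ∧ polar Q w₀ v ≠ 0 := by
    by_contra hcon
    push Not at hcon
    have h1 := hcon b hb hqb
    have h2 := hcon x hx hqx0
    have : w₀ ∈ P ⊓ perp Q P := ⟨hw₀P, fun d hd => by
      obtain ⟨p, r, rfl⟩ := plane_span_of_li hP.dim hb hx hli d hd
      change polar Q _ w₀ = 0
      rw [pc, par, psr, psr, h1, h2]; ring⟩
    rw [hP.nd] at this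
    exact hw₀0 this
  have h1 := hline v hv hqv _ (mul_ne_zero (inv_ne_zero hqv) hwv) (hA v hv hqv w₀ hw₀ hw₀P)
  obtain ⟨x', hx', hqx', hvx', hli', -⟩ := hP.exists_rot hv hqv
  have hqx'0 : Q x' ≠ 0 := by rw [hqx']; exact hqv
  have h2 := hline x' hx' hqx'0 _ (mul_ne_zero (inv_ne_zero hqx'0) hvx')
    (hA x' hx' hqx'0 v (by have := h1 1; rwa [one_smul] at this) hv)
  intro d hd
  obtain ⟨p, r, rfl⟩ := plane_span_of_li hP.dim hv hx' hli' d hd
  exact A.add_mem (h1 p) (h2 r)

/-- A plane with a non-zero singular vector has a hyperbolic basis. -/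
theorem plane_hyp (hdim : Module.finrank F P = 2) (hnd : P ⊓ perp Q P = ⊥) {e : V} (he : e ∈ P)
    (he0 : e ≠ 0) (hqe : Q e = 0) : ∃ f ∈ P, Q f = 0 ∧ polar Q e f = 1 ∧
      ∀ x ∈ P, x = polar Q x f • e + polar Q x e • f := by
  obtain ⟨f, hf, hqf, hef⟩ := sub_partner hnd he hqe he0
  have hfe : polar Q f e = 1 := by rw [pc, hef]
  have hee : polar Q e e = 0 := by rw [pself, hqe, mul_zero]
  have hff : polar Q f f = 0 := by rw [pself, hqf, mul_zero]
  refine ⟨f, hf, hqf, hef, fun x hx => ?_⟩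
  obtain ⟨p, r, rfl⟩ := plane_span_of_li hdim he hf (by
    intro p r h
    have h1 : polar Q (p • e + r • f) e = 0 := by rw [h, polar_zero_left]
    have h2 : polar Q (p • e + r • f) f = 0 := by rw [h, polar_zero_left]
    rw [pal, psl, psl, hee, hfe] at h1
    rw [pal, psl, psl, hef, hff] at h2
    exact ⟨by linear_combination h2, by linear_combination h1⟩) x hx
  rw [pal, psl, psl, pal, psl, psl, hef, hff, hee, hfe]
  module

theorem exists_avoid (h7 : 7 ≤ Nat.card F) (κ κ' : F) : ∃ s : F, s ≠ 0 ∧ s ≠ 1 ∧ s ≠ κ ∧ s * s ≠ κ' := by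
  classical
  cases nonempty_fintype F
  by_contra hcon
  push Not at hcon
  have h1 : (Finset.univ : Finset F) ⊆ {0, 1, κ} ∪ Finset.univ.filter fun a : F => 1 * a * a + 0 * a + (-κ') = 0 := by
    intro s _
    rw [Finset.mem_union]
    by_cases h0 : s = 0
    · left; simp [h0]
    by_cases h1 : s = 1
    · left; simp [h1]
    by_cases h2 : s = κ
    · left; simp [h2]
    right
    rw [Finset.mem_filter]
    refine ⟨Finset.mem_univ _, ?_⟩
    have := hcon s h0 h1 h2
    linear_combination this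
  have h2 := (Finset.card_le_card h1).trans (Finset.card_union_le _ _)
  have h3 : ({0, 1, κ} : Finset F).card ≤ 3 := Finset.card_le_three
  have h4 := card_quad_le (F := F) (α := 1) (β := 0) (γ := -κ') one_ne_zero
  rw [Finset.card_univ, ← Nat.card_eq_fintype_card] at h2
  omega

/-- The values of `Q(z)` with `Q(z) = B(b,z)`. -/
theorem plane_values (hdim : Module.finrank F P = 2) (hnd : P ⊓ perp Q P = ⊥)
    (han : ∀ x ∈ P, Q x = 0 → x = 0) {b : V} (hb : b ∈ P) (hq : Q b ≠ 0) :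
    ∃ S : Finset F, (∀ γ ∈ S, γ ≠ 0 ∧ ∃ z ∈ P, Q z = γ ∧ polar Q b z = γ) ∧ Nat.card F ≤ 2 * S.card := by
  classical
  obtain ⟨T, hT, -, hc⟩ := plane_count hdim hnd hb hq
  have hc := hc han
  have hU : T.card ≤ ((insert (4 : F) T).erase 0).card := by
    have h1 : (insert (4 : F) T).card = T.card + 1 :=
      Finset.card_insert_of_notMem (fun h => (hT 4 h).1 rfl)
    have h2 := Finset.pred_card_le_card_erase (s := insert (4 : F) T) (a := 0)
    omega
  refine ⟨((insert (4 : F) T).erase 0).image fun ρ => ρ * Q b, ?_, ?_⟩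
  · intro γ hγ
    obtain ⟨ρ, hρ, rfl⟩ := Finset.mem_image.1 hγ
    rw [Finset.mem_erase] at hρ
    obtain ⟨hρ0, hρ⟩ := hρ
    refine ⟨mul_ne_zero hρ0 hq, ?_⟩
    rcases Finset.mem_insert.1 hρ with rfl | hρT
    · refine ⟨(2 : F) • b, P.smul_mem _ hb, ?_, ?_⟩
      · rw [qsmul]; ring
      · rw [psr, pself]; ring
    · obtain ⟨-, w, hw, hqw, hρw⟩ := hT ρ hρT
      refine ⟨(polar Q b w / Q w) • w, P.smul_mem _ hw, ?_, ?_⟩
      · rw [qsmul]
        field_simp
        linear_combination -hρw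
      · rw [psr]
        field_simp
        linear_combination -hρw
  · rw [Finset.card_image_of_injective _ (fun a a' h => mul_right_cancel₀ hq h)]
    omega

/-- Two vectors of planes can be moved by vectors whose sum is singular. -/
theorem pair_exists {P₁ P₂ : Submodule F V} (hP₁ : Good Q P₁) (hP₂ : Good Q P₂)
    (hiso : (∀ x ∈ P₁, Q x = 0 → x = 0) ↔ (∀ x ∈ P₂, Q x = 0 → x = 0)) {b₁ b₂ : V} (hb₁ : b₁ ∈ P₁)
    (hb₂ : b₂ ∈ P₂) (hq₁ : Q b₁ ≠ 0) (hq₂ : Q b₂ ≠ 0) :
    ∃ z₁ ∈ P₁, ∃ z₂ ∈ P₂, Q z₁ ≠ 0 ∧ Q z₂ ≠ 0 ∧ polar Q b₁ z₁ = Q z₁ ∧ polar Q b₂ z₂ = Q z₂ ∧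
      Q z₁ + Q z₂ = 0 := by
  classical
  cases nonempty_fintype F
  by_cases han : ∀ x ∈ P₁, Q x = 0 → x = 0
  · -- anisotropic planes
    obtain ⟨S₁, hS₁, hc₁⟩ := plane_values hP₁.dim hP₁.nd han hb₁ hq₁
    obtain ⟨S₂, hS₂, hc₂⟩ := plane_values hP₂.dim hP₂.nd (hiso.1 han) hb₂ hq₂
    have hne : (S₁ ∩ S₂.image fun γ => -γ).Nonempty := by
      refine Finset.inter_nonempty_of_card_lt_card_add_card (s := Finset.univ.erase (0 : F)) ?_ ?_ ?_
      · intro γ hγ
        exact Finset.mem_erase.2 ⟨(hS₁ γ hγ).1, Finset.mem_univ _⟩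
      · intro γ hγ
        obtain ⟨δ, hδ, rfl⟩ := Finset.mem_image.1 hγ
        exact Finset.mem_erase.2 ⟨neg_ne_zero.2 (hS₂ δ hδ).1, Finset.mem_univ _⟩
      · rw [Finset.card_erase_of_mem (Finset.mem_univ _), Finset.card_univ, ← Nat.card_eq_fintype_card,
          Finset.card_image_of_injective _ neg_injective]
        have : 0 < Nat.card F := Nat.card_pos
        omega
    obtain ⟨γ, hγ⟩ := hne
    rw [Finset.mem_inter] at hγ
    obtain ⟨hγ1, hγ2⟩ := hγ
    obtain ⟨δ, hδ, hδγ⟩ := Finset.mem_image.1 hγ2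
    obtain ⟨h0, z₁, hz₁, hqz₁, hbz₁⟩ := hS₁ γ hγ1
    obtain ⟨h0', z₂, hz₂, hqz₂, hbz₂⟩ := hS₂ δ hδ
    refine ⟨z₁, hz₁, z₂, hz₂, by rw [hqz₁]; exact h0, by rw [hqz₂]; exact h0', by rw [hqz₁, hbz₁],
      by rw [hqz₂, hbz₂], ?_⟩
    rw [hqz₁, hqz₂, ← hδγ]; ring
  · have h7 : 7 ≤ Nat.card F := by
      rcases hP₁.good with h | ⟨h, -⟩
      · exact h
      · exact absurd h han
    have han2 : ¬ (∀ x ∈ P₂, Q x = 0 → x = 0) := fun h => han (hiso.2 h)
    push Not at han han2
    obtain ⟨e₁, he₁, hqe₁, he₁0⟩ := han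
    obtain ⟨e₂, he₂, hqe₂, he₂0⟩ := han2
    obtain ⟨f₁, hf₁, hqf₁, hef₁, hdec₁⟩ := plane_hyp hP₁.dim hP₁.nd he₁ he₁0 hqe₁
    obtain ⟨f₂, hf₂, hqf₂, hef₂, hdec₂⟩ := plane_hyp hP₂.dim hP₂.nd he₂ he₂0 hqe₂
    obtain ⟨x₁, y₁, hb₁'⟩ : ∃ x₁ y₁ : F, b₁ = x₁ • e₁ + y₁ • f₁ := ⟨_, _, hdec₁ b₁ hb₁⟩
    obtain ⟨x₂, y₂, hb₂'⟩ : ∃ x₂ y₂ : F, b₂ = x₂ • e₂ + y₂ • f₂ := ⟨_, _, hdec₂ b₂ hb₂⟩
    have hqb₁ : Q b₁ = x₁ * y₁ := by rw [hb₁', qadd, qsmul, qsmul, psl, psr, hqe₁, hqf₁, hef₁]; ring
    have hqb₂ : Q b₂ = x₂ * y₂ := by rw [hb₂', qadd, qsmul, qsmul, psl, psr, hqe₂, hqf₂, hef₂]; ring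
    obtain ⟨κ, hκ⟩ : ∃ κ, κ = -(Q b₁) / Q b₂ := ⟨_, rfl⟩
    have hκ' : Q b₁ = -κ * Q b₂ := by rw [hκ]; field_simp
    have hκ0 : κ ≠ 0 := by
      rintro rfl
      apply hq₁; rw [hκ']; ring
    obtain ⟨s, hs0, hs1, hsκ, hss⟩ := exists_avoid h7 κ κ
    have hs1' : 1 - s ≠ 0 := sub_ne_zero.2 (Ne.symm hs1)
    have hsκ' : s - κ ≠ 0 := sub_ne_zero.2 hsκ
    have hss' : κ - s * s ≠ 0 := sub_ne_zero.2 (Ne.symm hss)
    obtain ⟨c, hc⟩ : ∃ c, c = κ * (1 - s) / (s * (s - κ)) := ⟨_, rfl⟩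
    obtain ⟨d, hd⟩ : ∃ d, d = s * (1 - s) / (s - κ) := ⟨_, rfl⟩
    have hc0 : c ≠ 0 := by rw [hc]; exact div_ne_zero (mul_ne_zero hκ0 hs1') (mul_ne_zero hs0 hsκ')
    have hd0 : d ≠ 0 := by rw [hd]; exact div_ne_zero (mul_ne_zero hs0 hs1') hsκ'
    have hc1 : 1 - c = -(κ - s * s) / (s * (s - κ)) := by rw [hc]; field_simp; ring
    have hd1 : 1 - d = -(κ - s * s) / (s - κ) := by rw [hd]; field_simp; ring
    have hc2 : 1 - c ≠ 0 := by
      rw [hc1]; exact div_ne_zero (neg_ne_zero.2 hss') (mul_ne_zero hs0 hsκ')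
    have hd2 : 1 - d ≠ 0 := by rw [hd1]; exact div_ne_zero (neg_ne_zero.2 hss') hsκ'
    have hci : 1 - c⁻¹ ≠ 0 := by
      intro h
      apply hc2
      have : 1 - c = -c * (1 - c⁻¹) := by field_simp; ring
      rw [this, h, mul_zero]
    have hdi : 1 - d⁻¹ ≠ 0 := by
      intro h
      apply hd2
      have : 1 - d = -d * (1 - d⁻¹) := by field_simp; ring
      rw [this, h, mul_zero]
    have hz₁q : Q (((1 - c) * x₁) • e₁ + ((1 - c⁻¹) * y₁) • f₁) = (1 - c) * (1 - c⁻¹) * Q b₁ := by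
      rw [qadd, qsmul, qsmul, psl, psr, hqe₁, hqf₁, hef₁, hqb₁]; ring
    have hz₂q : Q (((1 - d) * x₂) • e₂ + ((1 - d⁻¹) * y₂) • f₂) = (1 - d) * (1 - d⁻¹) * Q b₂ := by
      rw [qadd, qsmul, qsmul, psl, psr, hqe₂, hqf₂, hef₂, hqb₂]; ring
    have hfe₁ : polar Q f₁ e₁ = 1 := by rw [pc, hef₁]
    have hfe₂ : polar Q f₂ e₂ = 1 := by rw [pc, hef₂]
    refine ⟨((1 - c) * x₁) • e₁ + ((1 - c⁻¹) * y₁) • f₁, P₁.add_mem (P₁.smul_mem _ he₁) (P₁.smul_mem _ hf₁),
      ((1 - d) * x₂) • e₂ + ((1 - d⁻¹) * y₂) • f₂, P₂.add_mem (P₂.smul_mem _ he₂) (P₂.smul_mem _ hf₂),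
      ?_, ?_, ?_, ?_, ?_⟩
    · rw [hz₁q]; exact mul_ne_zero (mul_ne_zero hc2 hci) hq₁
    · rw [hz₂q]; exact mul_ne_zero (mul_ne_zero hd2 hdi) hq₂
    · rw [hz₁q, hqb₁]
      conv_lhs => rw [hb₁']
      rw [pal, par, par, psl, psr, psl, psr, psl, psr, psl, psr, pself, pself, hqe₁, hqf₁, hef₁, hfe₁]
      field_simp
      ring
    · rw [hz₂q, hqb₂]
      conv_lhs => rw [hb₂']
      rw [pal, par, par, psl, psr, psl, psr, psl, psr, psl, psr, pself, pself, hqe₂, hqf₂, hef₂, hfe₂]
      field_simp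
      ring
    · rw [hz₁q, hz₂q, hκ']
      have h1 : (1 - d) * (1 - d⁻¹) = κ * ((1 - c) * (1 - c⁻¹)) := by
        have e1 : (1 - d) * (1 - d⁻¹) = -((1 - d) * (1 - d)) / d := by field_simp; ring
        have e2 : (1 - c) * (1 - c⁻¹) = -((1 - c) * (1 - c)) / c := by field_simp; ring
        rw [e1, e2, hc1, hd1, hc, hd]
        field_simp
      rw [h1]; ring

end

end Cfsg.Agent.ODec
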