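import Cfsg.Agent.ODec.Basic
import Cfsg.Agent.GeoMax.OBasic

/-!
Overgroups of stabilisers of orthogonal frames: adjusting isometries, swaps, spreading of Siegel
transformations.
-/

set_option autoImplicit false
set_option linter.unusedSectionVars false
set_option linter.unusedVariables false

namespace Cfsg.Agent.ODec

open QuadraticMap Cfsg.Agent.Orth Cfsg.Agent.OMax

variable {F V : Type*} [Field F] [AddCommGroup V] [Module F V]

theorem exists_adjust' [Finite F] [FiniteDimensional F V] {Q : QuadraticForm F V}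
    (hQ : (polarBilin Q).Nondegenerate) (hR : RGrp Q = ⊤) {E : Submodule F V}
    (hE : ∀ c : F, c ≠ 0 → ∃ v ∈ E, Q v = c) (g : OGrp Q) :
    ∃ r : OGrp Q, g * r ∈ commutator (OGrp Q) ∧ (∀ x ∈ E, (r : V ≃ₗ[F] V) x ∈ E) ∧
      (∀ x, (∀ v ∈ E, polar Q x v = 0) → (r : V ≃ₗ[F] V) x = x) := by
  obtain ⟨l, rfl⟩ := exists_reflProd hR g
  obtain ⟨v, hv, hqv⟩ := hE (nrm Q l) (nrm_ne_zero Q l)
  obtain ⟨w, hw, hqw⟩ := hE 1 one_ne_zero
  have hqv0 : Q v ≠ 0 := by rw [hqv]; exact nrm_ne_zero Q l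
  have hqw0 : Q w ≠ 0 := by rw [hqw]; exact one_ne_zero
  have hpres : ∀ (v : V) (hv : v ∈ E) (hq : Q v ≠ 0),
      (∀ x ∈ E, (refl Q v hq : V ≃ₗ[F] V) x ∈ E) ∧
      (∀ x, (∀ v ∈ E, polar Q x v = 0) → (refl Q v hq : V ≃ₗ[F] V) x = x) := by
    intro v hv hq
    constructor
    · intro x hx
      rw [refl_apply]; exact E.sub_mem hx (E.smul_mem _ hv)
    · intro x hx
      exact refl_apply_of_ortho hq (hx v hv)
  rcases Nat.even_or_odd l.length with he | ho
  · refine ⟨refl Q v hqv0 * refl Q w hqw0, ?_, fun x hx => ?_, fun x hx => ?_⟩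
    · have := reflProd_mem_commutator hQ (l := l ++ [⟨v, hqv0⟩, ⟨w, hqw0⟩])
        (by rw [List.length_append]; exact he.add ⟨1, rfl⟩)
        (by rw [nrm_append, nrm_cons, nrm_cons, nrm_nil, mul_one, hqv, hqw, mul_one]; exact ⟨nrm Q l, rfl⟩)
      rwa [reflProd_append, reflProd_cons, reflProd_cons, reflProd_nil, mul_one] at this
    · rw [coe_mul_apply]
      exact (hpres v hv hqv0).1 _ ((hpres w hw hqw0).1 x hx)
    · rw [coe_mul_apply, (hpres w hw hqw0).2 x hx, (hpres v hv hqv0).2 x hx]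
  · refine ⟨refl Q v hqv0, ?_, (hpres v hv hqv0).1, (hpres v hv hqv0).2⟩
    have := reflProd_mem_commutator hQ (l := l ++ [⟨v, hqv0⟩])
      (by rw [List.length_append]; exact ho.add_odd ⟨0, rfl⟩)
      (by rw [nrm_append, nrm_cons, nrm_nil, mul_one, hqv]; exact ⟨nrm Q l, rfl⟩)
    rwa [reflProd_append, reflProd_cons, reflProd_nil, mul_one] at this

section

variable [Finite F] [FiniteDimensional F V] {Q : QuadraticForm F V} {M : Subgroup (OGrp Q)}
  {t k : ℕ} {D : Fin t → Submodule F V}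

theorem DC.hR (C : DC Q M k D) : RGrp Q = ⊤ := RGrp_eq_top C.hQ (Or.inr (by have := C.hn; omega))

theorem DC.swap (C : DC Q M k D) {j l : Fin t} (hjl : j ≠ l) :
    ∃ g ∈ M, (∀ i, i ≠ j → i ≠ l → ∀ x ∈ D i, (g : V ≃ₗ[F] V) x = x) ∧
      (∀ y ∈ D l, ∃ x ∈ D j, (g : V ≃ₗ[F] V) x = y) := by
  obtain ⟨g, ⟨σ, hσ⟩, hfix, hjl'⟩ := exists_swap C.hQ C.hD C.hI hjl
  obtain ⟨r, hr, hr1, hr2⟩ := exists_adjust' C.hQ C.hR (fun c _ => C.exists_q j c) g
  have hrp : ∀ i, i ≠ j → ∀ x ∈ D i, (r : V ≃ₗ[F] V) x = x := fun i hij x hx =>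
    hr2 x (fun y hy => C.hD.orth i j hij x hx y hy)
  have hract : ∀ i, act r (D i) = D i := by
    intro i
    by_cases hij : i = j
    · subst hij; exact act_eq_of_forall hr1 rfl
    · exact act_eq_of_forall (fun x hx => by rw [hrp i hij x hx]; exact hx) rfl
  refine ⟨g * r, C.hH _ hr ⟨σ, fun i => by rw [act_mul, hract, hσ]⟩, ?_, ?_⟩
  · intro i hij hil x hx
    rw [coe_mul_apply, hrp i hij x hx, hfix i hij hil x hx]
  · intro y hy
    obtain ⟨x, hx, hxy⟩ := hjl' y hy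
    have h1 : x ∈ act r (D j) := by rw [hract]; exact hx
    obtain ⟨x', hx', hxx'⟩ := h1
    refine ⟨x', hx', ?_⟩
    rw [coe_mul_apply]
    have : (r : V ≃ₗ[F] V) x' = x := hxx'
    rw [this, hxy]

/-- a frame member is not orthogonal to a vector with non-zero component -/
theorem exists_nonortho (hD : IsFrame Q k D) {j : Fin t} {x : V} (hx : x ∈ D j) (hx0 : x ≠ 0) :
    ∃ y ∈ D j, polar Q x y ≠ 0 := by
  by_contra hcon
  push Not at hcon
  have : x ∈ D j ⊓ perp Q (D j) := ⟨hx, fun y hy => by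
    change polar Q y x = 0
    rw [pc]; exact hcon y hy⟩
  rw [hD.nondeg j] at this
  exact hx0 this

/-- a non-zero vector of a non-degenerate space of dimension at least two is not orthogonal to some
non-singular vector -/
theorem exists_nonortho_q (hD : IsFrame Q k D) (hns : ∀ j, ∃ a ∈ D j, ∃ b ∈ D j, Q a ≠ 0 ∧ Q b ≠ 0 ∧
    ∀ x ∈ D j, polar Q x a = 0 → polar Q x b = 0 → x = 0) {j : Fin t} {x : V} (hx : x ∈ D j) (hx0 : x ≠ 0) :
    ∃ y ∈ D j, Q y ≠ 0 ∧ polar Q x y ≠ 0 := by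
  obtain ⟨a, ha, b, hb, hqa, hqb, hab⟩ := hns j
  by_cases h1 : polar Q x a = 0
  · by_cases h2 : polar Q x b = 0
    · exact absurd (hab x hx h1 h2) hx0
    · exact ⟨b, hb, hqb, h2⟩
  · exact ⟨a, ha, hqa, h1⟩

/-- Generation inside a space with a hyperbolic pair. -/
theorem hasE_of_pair {z z' : V} (hz : Q z = 0) (hz' : Q z' = 0) (hzz : polar Q z z' = 1)
    {E : Submodule F V} (hE : ∀ y ∈ E, HasE M z y) (hE' : ∀ y ∈ E, HasE M z' y) {w x : V} (hw : w ∈ E)
    (hx : x ∈ E) (hqw : Q w = 0) (hwx : polar Q w x = 0) : HasE M w x := by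
  have hzx := (hE x hx).pab
  have hz'x := (hE' x hx).pab
  have hzw := (hE w hw).pab
  have hz'w := (hE' w hw).pab
  have hz'z : polar Q z' z = 1 := by rw [pc]; exact hzz
  -- conjugate by `eich z (-x)`
  obtain ⟨_, h1, hm⟩ := (hE x hx).neg
  have e1 : (eich Q z (-x) hz h1 : V ≃ₗ[F] V) w = w := by
    refine eich_fix hz h1 (by rw [pc]; exact hzw) ?_
    rw [polar_neg_right, hwx, neg_zero]
  have e2 : (eich Q z (-x) hz h1 : V ≃ₗ[F] V) z' = z' + x - Q x • z := by
    rw [eich_apply, polar_neg_right, hz'x, hz'z, QuadraticMap.map_neg]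
    module
  have h3 : HasE M w (-z') := (hE' w hw).swap hqw
  have h4 := h3.conj hm
  rw [e1, map_neg, e2] at h4
  have h5 : HasE M w (Q x • z) := by
    by_cases hq0 : Q x = 0
    · rw [hq0, zero_smul]; exact HasE.zero hqw
    · have h6 : HasE M z (Q x • (-w)) := hE _ (E.smul_mem _ (E.neg_mem hw))
      rw [← hasE_smul_left hq0] at h6
      have h7 := h6.swap (b := -w) (by rw [QuadraticMap.map_neg, hqw])
      have h8 : HasE M ((-1 : F) • w) (-(Q x • z)) := by rwa [neg_one_smul]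
      have h9 := h8.smul_left (neg_ne_zero.2 one_ne_zero)
      have : (-1 : F) • -(Q x • z) = Q x • z := by module
      rwa [this] at h9
  have h6 := (h4.neg.add h5).add h3
  have h7 : -(-(z' + x - Q x • z)) + Q x • z + -z' = x := by module
  -- `x = (z' + x - Q x z) + Q x z - z'`
  rwa [h7] at h6

end

end Cfsg.Agent.ODec
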