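import Cfsg.Agent.ODec.CaseC

/-!
Products of two reflections preserving a frame.
-/

set_option autoImplicit false
set_option linter.unusedSectionVars false
set_option linter.unusedVariables false

namespace Cfsg.Agent.ODec

open QuadraticMap Cfsg.Agent.Orth Cfsg.Agent.OMax

variable {F V : Type*} [Field F] [AddCommGroup V] [Module F V]

section

variable [Finite F] [FiniteDimensional F V] {Q : QuadraticForm F V} {M : Subgroup (OGrp Q)}
  {t k : ℕ} {D : Fin t → Submodule F V} {u : V}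

theorem finrank_span_pair {a a' : V} (hli : ∀ p r : F, p • a + r • a' = 0 → p = 0 ∧ r = 0) :
    Module.finrank F (Submodule.span F {a, a'}) = 2 := by
  have hli : LinearIndependent F ![a, a'] := LinearIndependent.pair_iff.2 hli
  have h1 := finrank_span_eq_card hli
  have h3 : Set.range ![a, a'] = {a, a'} := by
    simp [Matrix.range_cons, Matrix.range_empty, Set.pair_comm]
  rwa [h3, Fintype.card_fin] at h1

theorem sub_mem_span_pair {a a' : V} (ha : Q a ≠ 0) (ha' : Q a' ≠ 0) (x : V) :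
    x - ((refl Q a ha * refl Q a' ha' : OGrp Q) : V ≃ₗ[F] V) x ∈ Submodule.span F {a, a'} := by
  rw [coe_mul_apply, refl_apply, refl_apply]
  set c := (Q a')⁻¹ * polar Q x a'
  set d := (Q a)⁻¹ * polar Q (x - c • a') a
  have : x - (x - c • a' - d • a) = d • a + c • a' := by module
  rw [this]
  exact Submodule.mem_span_pair.2 ⟨d, c, rfl⟩

theorem exists_sub_eq (hQ : (polarBilin Q).Nondegenerate) {a a' : V} (ha : Q a ≠ 0) (ha' : Q a' ≠ 0)
    (hli : ∀ p r : F, p • a + r • a' = 0 → p = 0 ∧ r = 0) :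
    ∃ x, x - ((refl Q a ha * refl Q a' ha' : OGrp Q) : V ≃ₗ[F] V) x = a := by
  obtain ⟨b, hb, hba⟩ := exists_ortho_not hQ (Submodule.span F {a'}) (x := a) (by
    intro h
    obtain ⟨p, hp⟩ := Submodule.mem_span_singleton.1 h
    have := hli 1 (-p) (by rw [← hp]; module)
    exact one_ne_zero this.1)
  refine ⟨Q a • b, ?_⟩
  have h1 : polar Q (Q a • b) a' = 0 := by
    rw [psl, hb a' (Submodule.mem_span_singleton_self a'), mul_zero]
  rw [coe_mul_apply, refl_apply_of_ortho ha' h1, refl_apply, psl, hba, mul_one, inv_mul_cancel₀ ha]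
  module

/-- If `g` moves a member of the frame, the commutator space is read off from that member. -/
theorem surj_of_move (hD : IsFrame Q k D) (hk : 2 ≤ k) {g : OGrp Q} {P : Submodule F V}
    (hP : Module.finrank F P = 2) (hg : ∀ x, x - (g : V ≃ₗ[F] V) x ∈ P) {i l : Fin t} (hil : l ≠ i)
    (hgi : act g (D i) = D l) : k = 2 ∧ ∀ p ∈ P, ∃ x ∈ D i, p = x - (g : V ≃ₗ[F] V) x := by
  let T : V →ₗ[F] V := LinearMap.id - ((g : V ≃ₗ[F] V) : V →ₗ[F] V)
  have hT : ∀ x, T x = x - (g : V ≃ₗ[F] V) x := fun x => rfl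
  have hle : (D i).map T ≤ P := by
    rintro _ ⟨x, _, rfl⟩
    exact hg x
  have hinj : Function.Injective (T.comp (D i).subtype) := by
    rw [← LinearMap.ker_eq_bot, LinearMap.ker_eq_bot']
    rintro ⟨x, hx⟩ h0
    have h1 : x - (g : V ≃ₗ[F] V) x = 0 := h0
    have h2 : x ∈ D l := by
      rw [sub_eq_zero.1 h1, ← hgi]; exact apply_mem_act hx
    exact Subtype.ext (hD.disj hil h2 hx)
  have hfr : Module.finrank F ((D i).map T) = k := by
    have h1 : (D i).map T = LinearMap.range (T.comp (D i).subtype) := by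
      rw [LinearMap.range_comp, Submodule.range_subtype]
    rw [h1, LinearMap.finrank_range_of_inj hinj, hD.dim]
  have h1 := Submodule.finrank_mono hle
  rw [hfr, hP] at h1
  have hk2 : k = 2 := by omega
  refine ⟨hk2, fun p hp => ?_⟩
  have heq := Submodule.eq_of_le_of_finrank_eq hle (by rw [hfr, hP, hk2])
  rw [← heq] at hp
  obtain ⟨x, hx, rfl⟩ := hp
  exact ⟨x, hx, rfl⟩

theorem not_sq_one {a a' : V} (ha : Q a ≠ 0) (ha' : Q a' ≠ 0)
    (hli : ∀ p r : F, p • a + r • a' = 0 → p = 0 ∧ r = 0) (haa : polar Q a a' ≠ 0)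
    (h : ((refl Q a ha * refl Q a' ha' : OGrp Q) : V ≃ₗ[F] V)
      (((refl Q a ha * refl Q a' ha' : OGrp Q) : V ≃ₗ[F] V) a') = a') : False := by
  have h1 : ((refl Q a ha * refl Q a' ha' : OGrp Q) : V ≃ₗ[F] V) a' =
      (((refl Q a ha * refl Q a' ha')⁻¹ : OGrp Q) : V ≃ₗ[F] V) a' := by
    have h0 := congrArg (fun x => (((refl Q a ha * refl Q a' ha')⁻¹ : OGrp Q) : V ≃ₗ[F] V) x) h
    simp only [coe_inv_apply_self] at h0
    exact h0
  rw [mul_inv_rev, refl_inv, refl_inv, coe_mul_apply, coe_mul_apply, refl_apply_self, map_neg, refl_apply,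
    refl_apply, pdl, psl, pself] at h1
  have h3 : polar Q a' a = polar Q a a' := pc Q _ _
  rw [h3] at h1
  set c := (Q a)⁻¹ * polar Q a a' with hc
  have hc0 : c ≠ 0 := mul_ne_zero (inv_ne_zero ha) haa
  have h2 : (2 * c) • a + (-(c * ((Q a')⁻¹ * polar Q a a'))) • a' = 0 := by
    have e1 : (Q a')⁻¹ * (2 * Q a' - c * polar Q a a') = 2 - c * ((Q a')⁻¹ * polar Q a a') := by
      field_simp
    rw [e1] at h1
    have e2 : (2 * c) • a + (-(c * ((Q a')⁻¹ * polar Q a a'))) • a' =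
        -(a' - c • a) - (a' - c • a - (2 - c * ((Q a')⁻¹ * polar Q a a')) • a') := by module
    rw [e2, h1, sub_self]
  have h4 := (hli _ _ h2).2
  exact neg_ne_zero.2 (mul_ne_zero hc0 (mul_ne_zero (inv_ne_zero ha') haa)) h4

/-- components of a commutator -/
theorem comp_mem (hD : IsFrame Q k D) {g : OGrp Q} {P : Submodule F V}
    (hg : ∀ x, x - (g : V ≃ₗ[F] V) x ∈ P) (hgi : ∀ i, act g (D i) = D i) {c : Fin t → V} (hc : ∀ i, c i ∈ D i)
    {x : V} (hx : x - (g : V ≃ₗ[F] V) x = ∑ i, c i) (i : Fin t) : c i ∈ P := by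
  obtain ⟨d, hd, rfl⟩ := hD.sup x
  have hgd : ∀ i, (g : V ≃ₗ[F] V) (d i) ∈ D i := fun i => by
    have := apply_mem_act (g := g) (hd i)
    rwa [hgi i] at this
  have h1 : c = fun i => d i - (g : V ≃ₗ[F] V) (d i) := by
    refine comp_unique hD hc (fun i => (D i).sub_mem (hd i) (hgd i)) ?_
    rw [← hx, map_sum, Finset.sum_sub_distrib]
  rw [h1]
  exact hg _

/-- two frame vectors spanning a plane -/
theorem span_of_two (hD : IsFrame Q k D) {P : Submodule F V} (hP : Module.finrank F P = 2) {i j : Fin t}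
    (hij : i ≠ j) {x y : V} (hx : x ∈ D i) (hy : y ∈ D j) (hxP : x ∈ P) (hyP : y ∈ P) (hx0 : x ≠ 0)
    (hy0 : y ≠ 0) : ∀ p ∈ P, ∃ α β : F, p = α • x + β • y := by
  refine plane_span_of_li hP hxP hyP fun p r h => ?_
  have h1 : p • x = 0 := by
    refine hD.disj hij ((D i).smul_mem _ hx) ?_
    have : p • x = -(r • y) := eq_neg_of_add_eq_zero_left h
    rw [this]; exact (D j).neg_mem ((D j).smul_mem _ hy)
  rw [h1, zero_add] at h
  exact ⟨(smul_eq_zero.1 h1).resolve_right hx0, (smul_eq_zero.1 h).resolve_right hy0⟩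

/-- A rotation preserving the frame acts inside a single member. -/
theorem rot_pres (hQ : (polarBilin Q).Nondegenerate) (hD : IsFrame Q k D) (hk : 2 ≤ k) {a a' : V}
    (ha : Q a ≠ 0) (ha' : Q a' ≠ 0)
    (hli : ∀ p r : F, p • a + r • a' = 0 → p = 0 ∧ r = 0) (haa : polar Q a a' ≠ 0)
    (hnd : ∀ x ∈ Submodule.span F {a, a'}, (∀ y ∈ Submodule.span F {a, a'}, polar Q x y = 0) → x = 0)
    (hp : Pres D (refl Q a ha * refl Q a' ha')) : ∃ i, a ∈ D i := by
  classical
  obtain ⟨σ, hσ⟩ := hp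
  obtain ⟨g, hgdef⟩ : ∃ g, g = refl Q a ha * refl Q a' ha' := ⟨_, rfl⟩
  obtain ⟨P, hPdef⟩ : ∃ P, P = Submodule.span F {a, a'} := ⟨_, rfl⟩
  have hP2 : Module.finrank F P = 2 := by rw [hPdef]; exact finrank_span_pair hli
  have hgP : ∀ x, x - (g : V ≃ₗ[F] V) x ∈ P := fun x => by
    rw [hgdef, hPdef]; exact sub_mem_span_pair ha ha' x
  have ha'P : a' ∈ P := by rw [hPdef]; exact Submodule.subset_span (by simp)
  have haP : a ∈ P := by rw [hPdef]; exact Submodule.subset_span (by simp)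
  have hns : ∀ h : (g : V ≃ₗ[F] V) ((g : V ≃ₗ[F] V) a') = a', False := fun h => by
    rw [hgdef] at h
    exact not_sq_one ha ha' hli haa h
  rw [← hPdef] at hnd
  rw [← hgdef] at hσ
  by_cases hmove : ∃ i, σ i ≠ i
  · exfalso
    obtain ⟨i, hi⟩ := hmove
    obtain ⟨-, hsurj⟩ := surj_of_move hD hk hP2 hgP hi (hσ i)
    have hll : σ (σ i) ≠ σ i := fun h => hi (σ.injective h)
    have h2 : ∀ x ∈ D i, (g : V ≃ₗ[F] V) ((g : V ≃ₗ[F] V) x) = x := by
      intro x hx
      have hgx : (g : V ≃ₗ[F] V) x ∈ D (σ i) := by rw [← hσ]; exact apply_mem_act hx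
      have hggx : (g : V ≃ₗ[F] V) ((g : V ≃ₗ[F] V) x) ∈ D (σ (σ i)) := by rw [← hσ]; exact apply_mem_act hgx
      obtain ⟨x', hx', h3⟩ := hsurj _ (hgP ((g : V ≃ₗ[F] V) x))
      have hgx' : (g : V ≃ₗ[F] V) x' ∈ D (σ i) := by rw [← hσ]; exact apply_mem_act hx'
      have h4 : (g : V ≃ₗ[F] V) x + (g : V ≃ₗ[F] V) x' = 0 := by
        refine eq_zero_of_ortho hD ((D (σ i)).add_mem hgx hgx') fun y hy => ?_
        have h5 : (g : V ≃ₗ[F] V) x + (g : V ≃ₗ[F] V) x' = x' + (g : V ≃ₗ[F] V) ((g : V ≃ₗ[F] V) x) := by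
          have : (g : V ≃ₗ[F] V) x = (x' - (g : V ≃ₗ[F] V) x') + (g : V ≃ₗ[F] V) ((g : V ≃ₗ[F] V) x) := by
            rw [← h3]; abel
          conv_lhs => rw [this]
          abel
        rw [h5, pal, hD.orth _ _ (Ne.symm hi) _ hx' _ hy, hD.orth _ _ hll _ hggx _ hy, add_zero]
      have h5 : x' = -x := by
        have : (g : V ≃ₗ[F] V) (x + x') = (g : V ≃ₗ[F] V) 0 := by rw [map_add, h4, map_zero]
        have := (g : V ≃ₗ[F] V).injective this
        rw [add_comm] at this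
        exact eq_neg_of_add_eq_zero_left this
      rw [h5, map_neg] at h3
      have h6 : (g : V ≃ₗ[F] V) ((g : V ≃ₗ[F] V) x) =
          (g : V ≃ₗ[F] V) x - (-x - -(g : V ≃ₗ[F] V) x) := by rw [← h3]; abel
      rw [h6]; abel
    obtain ⟨x, hx, hxa⟩ := hsurj _ ha'P
    apply hns
    rw [hxa, map_sub, map_sub, h2 x hx]
  · push Not at hmove
    have hgi : ∀ i, act g (D i) = D i := fun i => by rw [hσ, hmove]
    obtain ⟨x, hx⟩ := exists_sub_eq hQ ha ha' hli
    rw [← hgdef] at hx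
    obtain ⟨c, hc, hsum⟩ := hD.sup a
    have hcP := comp_mem hD hgP hgi hc (hx.trans hsum)
    by_contra hcon
    push Not at hcon
    have ha0 : a ≠ 0 := by rintro rfl; exact ha (QuadraticMap.map_zero Q)
    obtain ⟨i, hi⟩ : ∃ i, c i ≠ 0 := by
      by_contra hcon
      push Not at hcon
      exact ha0 (by rw [hsum]; exact Finset.sum_eq_zero fun i _ => hcon i)
    obtain ⟨j, hji, hj⟩ : ∃ j, j ≠ i ∧ c j ≠ 0 := by
      by_contra h
      push Not at h
      apply hcon i
      rw [hsum, Finset.sum_eq_single i (fun l _ hl => h l hl) (fun h => absurd (Finset.mem_univ i) h)]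
      exact hc i
    have hspan := span_of_two hD hP2 (Ne.symm hji) (hc i) (hc j) (hcP i) (hcP j) hi hj
    have hspan' : ∀ p ∈ P, ∃ α β : F, p = α • c j + β • c i := fun p hp => by
      obtain ⟨α, β, h⟩ := hspan p hp
      exact ⟨β, α, by rw [h, add_comm]⟩
    -- `g` squares to one on each component
    have key : ∀ i j : Fin t, j ≠ i → c i ≠ 0 → (∀ p ∈ P, ∃ α β : F, p = α • c i + β • c j) →
        (g : V ≃ₗ[F] V) ((g : V ≃ₗ[F] V) (c i)) = c i := by
      intro i j hji hi hspan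
      have h1 : (g : V ≃ₗ[F] V) (c i) ∈ D i := by
        have := apply_mem_act (g := g) (hc i)
        rwa [hgi i] at this
      have h2 : (g : V ≃ₗ[F] V) (c i) ∈ P := by
        have := P.sub_mem (hcP i) (hgP (c i))
        rwa [sub_sub_cancel] at this
      obtain ⟨α, β, h3⟩ := hspan _ h2
      have h4 : β • c j = 0 := by
        refine hD.disj hji ((D j).smul_mem _ (hc j)) ?_
        have : β • c j = (g : V ≃ₗ[F] V) (c i) - α • c i := by rw [h3]; abel
        rw [this]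
        exact (D i).sub_mem h1 ((D i).smul_mem _ (hc i))
      rw [h4, add_zero] at h3
      have hqi : Q (c i) ≠ 0 := by
        intro hq
        apply hi
        refine hnd _ (hcP i) fun y hy => ?_
        obtain ⟨α, β, rfl⟩ := hspan y hy
        rw [par, psr, psr, pself, hq, hD.orth i j (Ne.symm hji) _ (hc i) _ (hc j)]; ring
      have h5 : Q ((g : V ≃ₗ[F] V) (c i)) = Q (c i) := OGrp_q g _
      rw [h3, qsmul] at h5
      have h6 : α * α = 1 := by
        have : (α * α - 1) * Q (c i) = 0 := by linear_combination h5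
        exact sub_eq_zero.1 ((mul_eq_zero.1 this).resolve_right hqi)
      rw [h3, map_smul, h3, smul_smul, h6, one_smul]
    obtain ⟨α, β, h1⟩ := hspan a' ha'P
    apply hns
    rw [h1, map_add, map_smul, map_smul, map_add, map_smul, map_smul, key i j hji hi hspan,
      key j i (Ne.symm hji) hj hspan']

/-- A product of two commuting reflections preserving the frame. -/
theorem invol_pres (hQ : (polarBilin Q).Nondegenerate) (hD : IsFrame Q k D) (hk : 2 ≤ k) (ht : 3 ≤ t) {a a' : V}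
    (ha : Q a ≠ 0) (ha' : Q a' ≠ 0) (hli : ∀ p r : F, p • a + r • a' = 0 → p = 0 ∧ r = 0)
    (hp : Pres D (refl Q a ha * refl Q a' ha')) : ∃ i, ∀ y ∈ D i, polar Q a y = 0 := by
  classical
  obtain ⟨σ, hσ⟩ := hp
  obtain ⟨g, hgdef⟩ : ∃ g, g = refl Q a ha * refl Q a' ha' := ⟨_, rfl⟩
  obtain ⟨P, hPdef⟩ : ∃ P, P = Submodule.span F {a, a'} := ⟨_, rfl⟩
  have hP2 : Module.finrank F P = 2 := by rw [hPdef]; exact finrank_span_pair hli
  have hgP : ∀ x, x - (g : V ≃ₗ[F] V) x ∈ P := fun x => by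
    rw [hgdef, hPdef]; exact sub_mem_span_pair ha ha' x
  have haP : a ∈ P := by rw [hPdef]; exact Submodule.subset_span (by simp)
  rw [← hgdef] at hσ
  by_cases hmove : ∃ i, σ i ≠ i
  · obtain ⟨i, hi⟩ := hmove
    obtain ⟨-, hsurj⟩ := surj_of_move hD hk hP2 hgP hi (hσ i)
    obtain ⟨x, hx, hxa⟩ := hsurj a haP
    have hgx : (g : V ≃ₗ[F] V) x ∈ D (σ i) := by rw [← hσ]; exact apply_mem_act hx
    obtain ⟨l, hl⟩ := exists_not_mem_finset ({i, σ i} : Finset (Fin t))
      (lt_of_le_of_lt Finset.card_le_two (by omega))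
    simp only [Finset.mem_insert, Finset.mem_singleton, not_or] at hl
    refine ⟨l, fun y hy => ?_⟩
    rw [hxa, pdl, hD.orth i l (Ne.symm hl.1) x hx y hy, hD.orth _ l (Ne.symm hl.2) _ hgx y hy, sub_zero]
  · push Not at hmove
    have hgi : ∀ i, act g (D i) = D i := fun i => by rw [hσ, hmove]
    obtain ⟨x, hx⟩ := exists_sub_eq hQ ha ha' hli
    rw [← hgdef] at hx
    obtain ⟨c, hc, hsum⟩ := hD.sup a
    have hcP := comp_mem hD hgP hgi hc (hx.trans hsum)
    by_contra hcon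
    have hc0 : ∀ i, c i ≠ 0 := by
      intro i hi
      apply hcon
      exact ⟨i, fun y hy => by rw [hsum, hD.polar_comp hc i hy, hi, polar_zero_left]⟩
    have hspan := span_of_two hD hP2 (i := ⟨0, by omega⟩) (j := ⟨1, by omega⟩) (by simp) (hc _) (hc _)
      (hcP _) (hcP _) (hc0 _) (hc0 _)
    obtain ⟨α, β, h1⟩ := hspan _ (hcP ⟨2, by omega⟩)
    apply hc0 ⟨2, by omega⟩
    refine eq_zero_of_ortho hD (hc _) fun y hy => ?_
    rw [h1, pal, psl, psl, hD.orth _ _ (by simp) _ (hc _) y hy, hD.orth _ _ (by simp) _ (hc _) y hy]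
    ring

end

end Cfsg.Agent.ODec
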