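import Cfsg.Agent.ODec.TwoA

/-!
Frames of planes: the case without invariant classes.
-/

set_option autoImplicit false
set_option linter.unusedSectionVars false
set_option linter.unusedVariables false

namespace Cfsg.Agent.ODec

open QuadraticMap Cfsg.Agent.Orth Cfsg.Agent.OMax

variable {F V : Type*} [Field F] [AddCommGroup V] [Module F V]

/-- Elements of `M` keeping one non-singular frame vector in the frame preserve the frame. -/
def HP {Q : QuadraticForm F V} (M : Subgroup (OGrp Q)) {t : ℕ} (D : Fin t → Submodule F V) : Prop :=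
  ∀ (i j : Fin t) (u : V), u ∈ D i → Q u ≠ 0 → ∀ m ∈ M, (m : V ≃ₗ[F] V) u ∈ D j → Pres D m

theorem exists_three_sq [Finite F] {a b c : F} (ha : a ≠ 0) (hb : b ≠ 0) (hc : c ≠ 0) :
    IsSquare (a * b) ∨ IsSquare (a * c) ∨ IsSquare (b * c) := by
  by_cases h1 : IsSquare a
  · by_cases h2 : IsSquare b
    · exact Or.inl (h1.mul h2)
    · by_cases h3 : IsSquare c
      · exact Or.inr (Or.inl (h1.mul h3))
      · exact Or.inr (Or.inr (isSquare_mul_of_not h2 h3))
  · by_cases h2 : IsSquare b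
    · by_cases h3 : IsSquare c
      · exact Or.inr (Or.inr (h2.mul h3))
      · exact Or.inr (Or.inl (isSquare_mul_of_not h1 h3))
    · exact Or.inl (isSquare_mul_of_not h1 h2)

/-- a plane meets every hyperplane -/
theorem plane_exists_ortho [Finite F] [FiniteDimensional F V] {Q : QuadraticForm F V} {P : Submodule F V} (hdim : Module.finrank F P = 2)
    (w : V) : ∃ a ∈ P, a ≠ 0 ∧ polar Q w a = 0 := by
  have hne : P ≠ ⊥ := by
    rintro rfl
    rw [finrank_bot] at hdim; omega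
  obtain ⟨x, hx, hx0⟩ := Submodule.exists_mem_ne_zero_of_ne_bot hne
  obtain ⟨y, hy, hli, -⟩ := plane_exists_second hdim hx hx0
  by_cases h : polar Q w x = 0
  · exact ⟨x, hx, hx0, h⟩
  · refine ⟨polar Q w y • x + (-polar Q w x) • y, P.add_mem (P.smul_mem _ hx) (P.smul_mem _ hy), ?_, ?_⟩
    · intro h0
      exact h (neg_eq_zero.1 (hli _ _ h0).2)
    · rw [par, psr, psr]; ring

section

variable [Finite F] [FiniteDimensional F V] {Q : QuadraticForm F V} {M : Subgroup (OGrp Q)}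
  {t k : ℕ} {D : Fin t → Submodule F V} {u : V}

theorem span_nd (m : OGrp Q) {P : Submodule F V} (hnd : ∀ x ∈ P, (∀ y ∈ P, polar Q x y = 0) → x = 0)
    {a a' : V} (ha : a ∈ P) (ha' : a' ∈ P) (hsp : ∀ p ∈ P, ∃ α β : F, p = α • a + β • a') :
    ∀ x ∈ Submodule.span F {(m : V ≃ₗ[F] V) a, (m : V ≃ₗ[F] V) a'},
      (∀ y ∈ Submodule.span F {(m : V ≃ₗ[F] V) a, (m : V ≃ₗ[F] V) a'}, polar Q x y = 0) → x = 0 := by
  intro x hx h
  obtain ⟨p, r, rfl⟩ := Submodule.mem_span_pair.1 hx
  have h1 : p • a + r • a' = 0 := by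
    refine hnd _ (P.add_mem (P.smul_mem _ ha) (P.smul_mem _ ha')) fun y hy => ?_
    obtain ⟨α, β, rfl⟩ := hsp y hy
    have h2 := h (α • (m : V ≃ₗ[F] V) a + β • (m : V ≃ₗ[F] V) a') (Submodule.mem_span_pair.2 ⟨α, β, rfl⟩)
    rwa [← map_smul, ← map_smul, ← map_smul, ← map_smul, ← map_add, ← map_add, OGrp_polar] at h2
  rw [← map_smul, ← map_smul, ← map_add, h1, map_zero]

theorem conj_pair (m : OGrp Q) {a a' : V} (ha : Q a ≠ 0) (ha' : Q a' ≠ 0) :
    m * (refl Q a ha * refl Q a' ha') * m⁻¹ = refl Q ((m : V ≃ₗ[F] V) a) (by rw [OGrp_q]; exact ha) *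
      refl Q ((m : V ≃ₗ[F] V) a') (by rw [OGrp_q]; exact ha') := by
  rw [← refl_conj m a ha, ← refl_conj m a' ha']; group

theorem conj_fix (m : OGrp Q) {a a' : V} (ha : Q a ≠ 0) (ha' : Q a' ≠ 0)
    (h1 : polar Q u ((m : V ≃ₗ[F] V) a) = 0) (h2 : polar Q u ((m : V ≃ₗ[F] V) a') = 0) :
    ((m * (refl Q a ha * refl Q a' ha') * m⁻¹ : OGrp Q) : V ≃ₗ[F] V) u = u := by
  rw [conj_pair, coe_mul_apply, refl_apply_of_ortho _ h2, refl_apply_of_ortho _ h1]

theorem li_map (m : OGrp Q) {a a' : V} (hli : ∀ p r : F, p • a + r • a' = 0 → p = 0 ∧ r = 0) :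
    ∀ p r : F, p • (m : V ≃ₗ[F] V) a + r • (m : V ≃ₗ[F] V) a' = 0 → p = 0 ∧ r = 0 := by
  intro p r h
  rw [← map_smul, ← map_smul, ← map_add] at h
  exact hli p r ((m : V ≃ₗ[F] V).map_eq_zero_iff.1 h)

/-- The conjugate of a rotation inside a member by an element not preserving the frame does not preserve
the frame. -/
theorem DC.conj_rot (C : DC Q M 2 D) (hP : HP M D) {m : OGrp Q} (hm : m ∈ M) (hmp : ¬ Pres D m) {j : Fin t}
    {a a' : V} (ha : a ∈ D j) (ha' : a' ∈ D j) (hqa : Q a ≠ 0) (hqa' : Q a' ≠ 0)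
    (hsq : IsSquare (Q a * Q a')) (hli : ∀ p r : F, p • a + r • a' = 0 → p = 0 ∧ r = 0)
    (haa : polar Q a a' ≠ 0) :
    m * (refl Q a hqa * refl Q a' hqa') * m⁻¹ ∈ M ∧
      ¬ Pres D (m * (refl Q a hqa * refl Q a' hqa') * m⁻¹) := by
  refine ⟨M.mul_mem (M.mul_mem hm (C.refl_pair ha ha' hqa hqa' hsq)) (M.inv_mem hm), fun hp => ?_⟩
  rw [conj_pair] at hp
  obtain ⟨l, hl⟩ := rot_pres C.hQ C.hD (le_refl 2) _ _ (li_map m hli) (by rw [OGrp_polar]; exact haa)
    (span_nd m (fun x hx h => eq_zero_of_ortho C.hD hx h) ha ha' (plane_span_of_li (C.hD.dim j) ha ha' hli)) hp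
  exact hmp (hP j l a ha hqa m hm hl)

theorem DC.star_one (C : DC Q M 2 D) (hG : ∀ i, Good Q (D i)) (hP : HP M D) {m : OGrp Q} (hm : m ∈ M)
    (hmp : ¬ Pres D m) {i : Fin t} (hu : u ∈ D i) (hqu : Q u ≠ 0) (j : Fin t) :
    ∃ x ∈ D j, polar Q u ((m : V ≃ₗ[F] V) x) ≠ 0 := by
  by_contra hcon
  push Not at hcon
  obtain ⟨v, hv, hqv⟩ := C.exists_q j 1
  have hqv0 : Q v ≠ 0 := by rw [hqv]; exact one_ne_zero
  obtain ⟨x, hx, hqx, hvx, hli, -⟩ := (hG j).exists_rot hv hqv0
  have hqx0 : Q x ≠ 0 := by rw [hqx]; exact hqv0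
  obtain ⟨h1, h2⟩ := C.conj_rot hP hm hmp hv hx hqv0 hqx0 ⟨Q v, by rw [hqx]⟩ hli hvx
  apply h2
  refine hP i i u hu hqu _ h1 ?_
  rw [conj_fix m hqv0 hqx0 (hcon v hv) (hcon x hx)]
  exact hu

theorem DC.star_two (C : DC Q M 2 D) (hG : ∀ i, Good Q (D i)) (hP : HP M D) (ht : 3 ≤ t) {m : OGrp Q}
    (hm : m ∈ M) (hmp : ¬ Pres D m) {i : Fin t} (hu : u ∈ D i) (hqu : Q u ≠ 0) {j l : Fin t} (hjl : j ≠ l)
    {a a' : V} (ha : a ∈ D j) (ha' : a' ∈ D l) (hqa : Q a ≠ 0) (hqa' : Q a' ≠ 0)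
    (hsq : IsSquare (Q a * Q a')) (h1 : polar Q u ((m : V ≃ₗ[F] V) a) = 0)
    (h2 : polar Q u ((m : V ≃ₗ[F] V) a') = 0) : False := by
  have ha0 : a ≠ 0 := by rintro rfl; exact hqa (QuadraticMap.map_zero Q)
  have ha'0 : a' ≠ 0 := by rintro rfl; exact hqa' (QuadraticMap.map_zero Q)
  have hli : ∀ p r : F, p • a + r • a' = 0 → p = 0 ∧ r = 0 := by
    intro p r h
    have h1 : p • a = 0 := by
      refine C.hD.disj hjl ((D j).smul_mem _ ha) ?_
      have : p • a = -(r • a') := eq_neg_of_add_eq_zero_left h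
      rw [this]; exact (D l).neg_mem ((D l).smul_mem _ ha')
    rw [h1, zero_add] at h
    exact ⟨(smul_eq_zero.1 h1).resolve_right ha0, (smul_eq_zero.1 h).resolve_right ha'0⟩
  have hg : m * (refl Q a hqa * refl Q a' hqa') * m⁻¹ ∈ M :=
    M.mul_mem (M.mul_mem hm (C.refl_pair ha ha' hqa hqa' hsq)) (M.inv_mem hm)
  have hp : Pres D (m * (refl Q a hqa * refl Q a' hqa') * m⁻¹) := by
    refine hP i i u hu hqu _ hg ?_
    rw [conj_fix m hqa hqa' h1 h2]; exact hu
  rw [conj_pair] at hp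
  obtain ⟨i', hi'⟩ := invol_pres C.hQ C.hD (le_refl 2) ht _ _ (li_map m hli) hp
  have hmp' : ¬ Pres D m⁻¹ := fun h => hmp (by have := h.inv; rwa [inv_inv] at this)
  obtain ⟨x, hx, hne⟩ := C.star_one hG hP (M.inv_mem hm) hmp' ha hqa i'
  apply hne
  have h3 := hi' x hx
  rw [← OGrp_polar m, coe_apply_inv_self]
  exact h3

theorem polar_apply_comm (m : OGrp Q) (x y : V) :
    polar Q x ((m : V ≃ₗ[F] V) y) = polar Q (((m⁻¹ : OGrp Q) : V ≃ₗ[F] V) x) y := by
  rw [← OGrp_polar m (((m⁻¹ : OGrp Q) : V ≃ₗ[F] V) x) y, coe_apply_inv_self]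

/-- The last configuration: two members projecting to the same singular line. -/
theorem DC.same_line (C : DC Q M 2 D) (hG : ∀ i, Good Q (D i)) (hP : HP M D) (h7 : 7 ≤ Nat.card F)
    {m : OGrp Q} (hm : m ∈ M) (hmp : ¬ Pres D m) {j : Fin t} {e f : V} (he : e ∈ D j) (hf : f ∈ D j)
    (hqe : Q e = 0) (hqf : Q f = 0) (hef : polar Q e f = 1) {i i' : Fin t} (hii : i ≠ i')
    (h1 : ∀ x ∈ D i, polar Q (((m⁻¹ : OGrp Q) : V ≃ₗ[F] V) x) f = 0)
    (h2 : ∀ x ∈ D i', polar Q (((m⁻¹ : OGrp Q) : V ≃ₗ[F] V) x) f = 0) : False := by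
  obtain ⟨r, hr0, hr1, hrm, hrr⟩ := exists_avoid h7 (-1 : F) (-1)
  obtain ⟨s, hs⟩ : ∃ s, s = r * r := ⟨_, rfl⟩
  have hs0 : s ≠ 0 := by rw [hs]; exact mul_ne_zero hr0 hr0
  have hs1 : s ≠ 1 := by
    rw [hs]; intro h
    rcases mul_self_eq_one_iff.1 h with h | h
    · exact hr1 h
    · exact hrm h
  have hsm : s ≠ -1 := by rw [hs]; exact hrr
  have hfe : polar Q f e = 1 := by rw [pc]; exact hef
  have hee : polar Q e e = 0 := by rw [pself, hqe, mul_zero]
  have hff : polar Q f f = 0 := by rw [pself, hqf, mul_zero]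
  have hqv : Q (e - s • f) = -s := by rw [qsub, qsmul, psr, hqe, hqf, hef]; ring
  have hqx : Q (e - f) = -1 := by rw [qsub, hqe, hqf, hef]; ring
  have hvx : polar Q (e - s • f) (e - f) = -(1 + s) := by
    rw [pdl, pdr, pdr, psl, psl, hee, hff, hef, hfe]; ring
  have hqv0 : Q (e - s • f) ≠ 0 := by rw [hqv]; exact neg_ne_zero.2 hs0
  have hqx0 : Q (e - f) ≠ 0 := by rw [hqx]; exact neg_ne_zero.2 one_ne_zero
  have hli : ∀ p r : F, p • (e - s • f) + r • (e - f) = 0 → p = 0 ∧ r = 0 := by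
    intro p r h
    have h3 : polar Q (p • (e - s • f) + r • (e - f)) f = 0 := by rw [h, polar_zero_left]
    have h4 : polar Q (p • (e - s • f) + r • (e - f)) e = 0 := by rw [h, polar_zero_left]
    rw [pal, psl, psl, pdl, pdl, psl, hef, hff] at h3
    rw [pal, psl, psl, pdl, pdl, psl, hee, hfe] at h4
    have h5 : p * (s - 1) = 0 := by linear_combination -h3 - h4
    have h6 : p = 0 := (mul_eq_zero.1 h5).resolve_right (sub_ne_zero.2 hs1)
    refine ⟨h6, ?_⟩
    rw [h6] at h3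
    linear_combination h3
  obtain ⟨hg, hgp⟩ := C.conj_rot hP hm hmp ((D j).sub_mem he ((D j).smul_mem s hf)) ((D j).sub_mem he hf)
    hqv0 hqx0 ⟨r, by rw [hqv, hqx, hs]; ring⟩ hli (by
      rw [hvx]; intro h
      apply hsm
      linear_combination -h)
  obtain ⟨w, hw, hqw⟩ := C.exists_q i 1
  obtain ⟨y, hy, hne⟩ := C.star_one hG hP hg hgp hw (by rw [hqw]; exact one_ne_zero) i'
  apply hne
  rw [mul_assoc, coe_mul_apply, polar_apply_comm m, coe_mul_apply, coe_mul_apply]
  set U := ((m⁻¹ : OGrp Q) : V ≃ₗ[F] V) w with hU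
  set Y := ((m⁻¹ : OGrp Q) : V ≃ₗ[F] V) y with hY
  have hUf : polar Q U f = 0 := h1 w hw
  have hYf : polar Q Y f = 0 := h2 y hy
  have hUY : polar Q U Y = 0 := by rw [hU, hY, OGrp_polar]; exact C.hD.orth i i' hii w hw y hy
  rw [refl_apply, refl_apply]
  simp only [hqv, hqx]
  have e1 : Y - ((-1 : F)⁻¹ * polar Q Y (e - f)) • (e - f) = Y + polar Q Y e • (e - f) := by
    rw [pdr, hYf, sub_zero, inv_neg, inv_one]; module
  rw [e1]
  have e2 : polar Q (Y + polar Q Y e • (e - f)) (e - s • f) = -(s * polar Q Y e) := by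
    rw [pal, psl, pdr, pdr, psr, psr, pdl, pdl, hYf, hee, hff, hef, hfe]; ring
  rw [e2]
  have e3 : (-s)⁻¹ * -(s * polar Q Y e) = polar Q Y e := by field_simp
  rw [e3]
  have e4 : Y + polar Q Y e • (e - f) - polar Q Y e • (e - s • f) = Y + (polar Q Y e * (s - 1)) • f := by
    module
  rw [e4, par, psr, hUY, hUf]; ring

/-- **Case II.** -/
theorem DC.case_two (C : DC Q M 2 D) (hG : ∀ i, Good Q (D i)) (hP : HP M D) (ht : 7 ≤ t) :
    ∀ m ∈ M, Pres D m := by
  classical
  intro m hm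
  by_contra hmp
  by_cases han : ∀ i, ∀ x ∈ D i, Q x = 0 → x = 0
  · -- anisotropic planes
    obtain ⟨w, hw, hqw⟩ := C.exists_q ⟨0, by omega⟩ 1
    have hqw0 : Q w ≠ 0 := by rw [hqw]; exact one_ne_zero
    have key : ∀ j, ∃ a ∈ D j, Q a ≠ 0 ∧ polar Q w ((m : V ≃ₗ[F] V) a) = 0 := by
      intro j
      obtain ⟨a, ha, ha0, h⟩ := plane_exists_ortho (Q := Q) (C.hD.dim j) (((m⁻¹ : OGrp Q) : V ≃ₗ[F] V) w)
      exact ⟨a, ha, fun h => ha0 (han j a ha h), by rw [polar_apply_comm]; exact h⟩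
    choose a ha hqa hwa using key
    have hne : ∀ i j : ℕ, ∀ (hi : i < t) (hj : j < t), i ≠ j → (⟨i, hi⟩ : Fin t) ≠ ⟨j, hj⟩ := by
      intro i j hi hj h h'
      exact h (Fin.mk.inj_iff.1 h')
    rcases exists_three_sq (hqa ⟨0, by omega⟩) (hqa ⟨1, by omega⟩) (hqa ⟨2, by omega⟩) with h | h | h
    · exact C.star_two hG hP (by omega) hm hmp hw hqw0 (hne 0 1 _ _ (by omega)) (ha _) (ha _) (hqa _) (hqa _)
        h (hwa _) (hwa _)
    · exact C.star_two hG hP (by omega) hm hmp hw hqw0 (hne 0 2 _ _ (by omega)) (ha _) (ha _) (hqa _) (hqa _)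
        h (hwa _) (hwa _)
    · exact C.star_two hG hP (by omega) hm hmp hw hqw0 (hne 1 2 _ _ (by omega)) (ha _) (ha _) (hqa _) (hqa _)
        h (hwa _) (hwa _)
  · push Not at han
    obtain ⟨i₀, x₀, hx₀, hqx₀, hx₀0⟩ := han
    have hiso : ∀ i, ∃ x ∈ D i, Q x = 0 ∧ x ≠ 0 := by
      intro i
      by_contra hcon
      push Not at hcon
      exact hx₀0 ((C.aniso_iff i i₀).1 hcon x₀ hx₀ hqx₀)
    have h7 : 7 ≤ Nat.card F := by
      rcases (hG i₀).good with h | h
      · exact h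
      · exact absurd (h.1 x₀ hx₀ hqx₀) hx₀0
    have hpair : ∀ i, ∃ e ∈ D i, ∃ f ∈ D i, Q e = 0 ∧ Q f = 0 ∧ polar Q e f = 1 ∧
        ∀ x ∈ D i, x = polar Q x f • e + polar Q x e • f := by
      intro i
      obtain ⟨e, he, hqe, he0⟩ := hiso i
      obtain ⟨f, hf, hqf, hef, hx⟩ := plane_hyp (C.hD.dim i) (C.hD.nondeg i) he he0 hqe
      exact ⟨e, he, f, hf, hqe, hqf, hef, hx⟩
    choose e he f hf hqe hqf hef hex using hpair
    have hfe : ∀ i, polar Q (f i) (e i) = 1 := fun i => by rw [pc]; exact hef i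
    have hee : ∀ i, polar Q (e i) (e i) = 0 := fun i => by rw [pself, hqe, mul_zero]
    have hff : ∀ i, polar Q (f i) (f i) = 0 := fun i => by rw [pself, hqf, mul_zero]
    obtain ⟨μ, hμ⟩ : ∃ μ : V ≃ₗ[F] V, μ = ((m⁻¹ : OGrp Q) : V ≃ₗ[F] V) := ⟨_, rfl⟩
    -- coordinates
    set A : Fin t → Fin t → F := fun i l => polar Q (μ (e i)) (f l) with hA
    set A' : Fin t → Fin t → F := fun i l => polar Q (μ (f i)) (f l) with hA'
    set B : Fin t → Fin t → F := fun i l => polar Q (μ (e i)) (e l) with hB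
    set B' : Fin t → Fin t → F := fun i l => polar Q (μ (f i)) (e l) with hB'
    -- at most two non-singular components
    have htwo : ∀ i, ∀ c : F, c ≠ 0 → (Finset.univ.filter fun l => ¬ ((c * A i l + A' i l) * (c * B i l + B' i l) = 0)).card ≤ 2 := by
      intro i c hc
      by_contra hcon
      push Not at hcon
      obtain ⟨l₁, h1, l₂, h2, l₃, h3, h12, h13, h23⟩ := Finset.two_lt_card.1 hcon
      simp only [Finset.mem_filter, Finset.mem_univ, true_and] at h1 h2 h3
      have hw : c • e i + f i ∈ D i := (D i).add_mem ((D i).smul_mem _ (he i)) (hf i)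
      have hqw : Q (c • e i + f i) ≠ 0 := by
        rw [qadd, qsmul, psl, hqe, hqf, hef]
        simpa using hc
      have hval : ∀ l, ¬ ((c * A i l + A' i l) * (c * B i l + B' i l) = 0) → ∃ a ∈ D l,
          Q a = -((c * A i l + A' i l) * (c * B i l + B' i l)) ∧
          polar Q (c • e i + f i) ((m : V ≃ₗ[F] V) a) = 0 := by
        intro l hl
        refine ⟨(c * A i l + A' i l) • e l - (c * B i l + B' i l) • f l,
          (D l).sub_mem ((D l).smul_mem _ (he l)) ((D l).smul_mem _ (hf l)), ?_, ?_⟩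
        · rw [qsub, qsmul, qsmul, psl, psr, hqe, hqf, hef]; ring
        · rw [polar_apply_comm, ← hμ, map_add, map_smul, pdr, psr, psr, pal, pal, psl, psl]
          change (c * A i l + A' i l) * (c * B i l + B' i l) - (c * B i l + B' i l) * (c * A i l + A' i l) = 0
          ring
      obtain ⟨a₁, ha₁, hq₁, hp₁⟩ := hval l₁ h1
      obtain ⟨a₂, ha₂, hq₂, hp₂⟩ := hval l₂ h2
      obtain ⟨a₃, ha₃, hq₃, hp₃⟩ := hval l₃ h3
      have hq₁0 : Q a₁ ≠ 0 := by rw [hq₁]; exact neg_ne_zero.2 h1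
      have hq₂0 : Q a₂ ≠ 0 := by rw [hq₂]; exact neg_ne_zero.2 h2
      have hq₃0 : Q a₃ ≠ 0 := by rw [hq₃]; exact neg_ne_zero.2 h3
      rcases exists_three_sq hq₁0 hq₂0 hq₃0 with h | h | h
      · exact C.star_two hG hP (by omega) hm hmp hw hqw h12 ha₁ ha₂ hq₁0 hq₂0 h hp₁ hp₂
      · exact C.star_two hG hP (by omega) hm hmp hw hqw h13 ha₁ ha₃ hq₁0 hq₃0 h hp₁ hp₃
      · exact C.star_two hG hP (by omega) hm hmp hw hqw h23 ha₂ ha₃ hq₂0 hq₃0 h hp₂ hp₃
    haveI : Fintype F := Fintype.ofFinite F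
    have hcF : 7 ≤ Fintype.card F := by rwa [Nat.card_eq_fintype_card] at h7
    -- bad pairs
    set bad : Fin t → Fin t → Prop := fun i l => (A i l ≠ 0 ∨ A' i l ≠ 0) ∧ (B i l ≠ 0 ∨ B' i l ≠ 0) with hbad
    have hbad3 : ∀ i, (Finset.univ.filter fun l => bad i l).card ≤ 3 := by
      intro i
      by_contra hcon
      push Not at hcon
      obtain ⟨S, hS, hS4⟩ := Finset.exists_subset_card_eq (show 4 ≤ _ from hcon)
      have hlin : ∀ a b : F, (a ≠ 0 ∨ b ≠ 0) → ((Finset.univ : Finset F).filter fun c => c * a + b = 0).card ≤ 1 := by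
        intro a b hab
        rw [Finset.card_le_one]
        intro x hx y hy
        simp only [Finset.mem_filter, Finset.mem_univ, true_and] at hx hy
        by_cases ha : a = 0
        · exfalso
          rw [ha, mul_zero, zero_add] at hx
          rcases hab with h | h
          · exact h ha
          · exact h hx
        · have : (x - y) * a = 0 := by linear_combination hx - hy
          exact sub_eq_zero.1 ((mul_eq_zero.1 this).resolve_right ha)
      have hdc := Finset.card_mul_le_card_mul (s := (Finset.univ : Finset F).erase 0) (t := S)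
        (fun c l => (c * A i l + A' i l) * (c * B i l + B' i l) = 0) (m := 2) (n := 2) (by
          intro c hc
          have hc0 : c ≠ 0 := (Finset.mem_erase.1 hc).1
          have h1 := htwo i c hc0
          have h2 : (S.filter fun l => ¬ ((c * A i l + A' i l) * (c * B i l + B' i l) = 0)).card ≤ 2 :=
            (Finset.card_le_card (Finset.filter_subset_filter _ (Finset.subset_univ S))).trans h1
          have h3 := Finset.card_filter_add_card_filter_not (s := S)
            (fun l => (c * A i l + A' i l) * (c * B i l + B' i l) = 0)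
          rw [Finset.bipartiteAbove]
          omega) (by
          intro l hl
          have hb := (Finset.mem_filter.1 (hS hl)).2
          rw [Finset.bipartiteBelow]
          have h1 : ((Finset.univ : Finset F).erase 0).filter
              (fun c => (c * A i l + A' i l) * (c * B i l + B' i l) = 0) ⊆
              ((Finset.univ : Finset F).filter fun c => c * A i l + A' i l = 0) ∪
              ((Finset.univ : Finset F).filter fun c => c * B i l + B' i l = 0) := by
            intro c hc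
            have := (Finset.mem_filter.1 hc).2
            rw [Finset.mem_union, Finset.mem_filter, Finset.mem_filter]
            rcases mul_eq_zero.1 this with h | h
            · exact Or.inl ⟨Finset.mem_univ _, h⟩
            · exact Or.inr ⟨Finset.mem_univ _, h⟩
          have h2 := (Finset.card_le_card h1).trans (Finset.card_union_le _ _)
          have h3 := hlin _ _ hb.1
          have h4 := hlin _ _ hb.2
          omega)
      rw [hS4, Finset.card_erase_of_mem (Finset.mem_univ _), Finset.card_univ] at hdc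
      omega
    -- a member with three good partners
    obtain ⟨j, hj⟩ : ∃ j, 2 < (Finset.univ.filter fun i => ¬ bad i j).card := by
      by_contra hcon
      push Not at hcon
      have hdc := Finset.card_mul_le_card_mul (s := (Finset.univ : Finset (Fin t)))
        (t := (Finset.univ : Finset (Fin t))) (fun j i => bad i j) (m := t - 2) (n := 3) (by
          intro j _
          have h1 := hcon j
          have h3 := Finset.card_filter_add_card_filter_not (s := (Finset.univ : Finset (Fin t)))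
            (fun i => bad i j)
          rw [Finset.card_univ, Fintype.card_fin] at h3
          rw [Finset.bipartiteAbove]
          omega) (by
          intro i _
          rw [Finset.bipartiteBelow]
          exact hbad3 i)
      rw [Finset.card_univ, Fintype.card_fin] at hdc
      have h5 := Nat.le_of_mul_le_mul_left hdc (by omega)
      omega
    obtain ⟨i₁, h1, i₂, h2, i₃, h3, h12, h13, h23⟩ := Finset.two_lt_card.1 hj
    simp only [Finset.mem_filter, Finset.mem_univ, true_and] at h1 h2 h3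
    have hgood : ∀ i, ¬ bad i j → (∀ x ∈ D i, polar Q (μ x) (f j) = 0) ∨ (∀ x ∈ D i, polar Q (μ x) (e j) = 0) := by
      intro i hi
      rw [hbad] at hi
      by_cases h : A i j ≠ 0 ∨ A' i j ≠ 0
      · right
        have h4 : ¬ (B i j ≠ 0 ∨ B' i j ≠ 0) := fun h' => hi ⟨h, h'⟩
        push Not at h4
        intro x hx
        rw [hex i x hx, map_add, map_smul, map_smul, pal, psl, psl]
        have e1 : polar Q (μ (e i)) (e j) = 0 := h4.1
        have e2 : polar Q (μ (f i)) (e j) = 0 := h4.2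
        rw [e1, e2]; ring
      · left
        push Not at h
        intro x hx
        rw [hex i x hx, map_add, map_smul, map_smul, pal, psl, psl]
        have e1 : polar Q (μ (e i)) (f j) = 0 := h.1
        have e2 : polar Q (μ (f i)) (f j) = 0 := h.2
        rw [e1, e2]; ring
    have hfin1 : ∀ i i', i ≠ i' → (∀ x ∈ D i, polar Q (μ x) (f j) = 0) → (∀ x ∈ D i', polar Q (μ x) (f j) = 0) →
        False := by
      intro i i' hii h h'
      rw [hμ] at h h'
      exact C.same_line hG hP h7 hm hmp (he j) (hf j) (hqe j) (hqf j) (hef j) hii h h'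
    have hfin2 : ∀ i i', i ≠ i' → (∀ x ∈ D i, polar Q (μ x) (e j) = 0) → (∀ x ∈ D i', polar Q (μ x) (e j) = 0) →
        False := by
      intro i i' hii h h'
      rw [hμ] at h h'
      exact C.same_line hG hP h7 hm hmp (hf j) (he j) (hqf j) (hqe j) (hfe j) hii h h'
    rcases hgood i₁ h1 with g1 | g1 <;> rcases hgood i₂ h2 with g2 | g2 <;> rcases hgood i₃ h3 with g3 | g3
    · exact hfin1 i₁ i₂ h12 g1 g2
    · exact hfin1 i₁ i₂ h12 g1 g2
    · exact hfin1 i₁ i₃ h13 g1 g3
    · exact hfin2 i₂ i₃ h23 g2 g3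
    · exact hfin1 i₂ i₃ h23 g2 g3
    · exact hfin2 i₁ i₃ h13 g1 g3
    · exact hfin2 i₁ i₂ h12 g1 g2
    · exact hfin2 i₁ i₂ h12 g1 g2

end

end Cfsg.Agent.ODec
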